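import Mathlib
import Cfsg.Agent.Lib.ClMax.SLMono

/-! The stabiliser of a decomposition into two blocks is maximal in `SL(V)` for `q ≥ 4`. -/

set_option autoImplicit false
set_option linter.unusedSectionVars false

namespace CfsgLib.Low4

open Cfsg Cfsg.Geo Module CfsgLib.ClMax

variable {F : Type*} [Field F] {V : Type*} [AddCommGroup V] [Module F V]
  {X : Subgroup (V ≃ₗ[F] V)}

theorem SLV_le_of_tv2 [FiniteDimensional F V] {τ : Type*} [Fintype τ] [DecidableEq τ]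
    {e : τ → V →ₗ[F] V} (h : OverB e X) {c : F} (hc0 : c ≠ 0) (hc : c * c ≠ 1) {v : V}
    {φ : Dual F V} (ht : HasTv X v φ) (hφv : φ v = 0) (hφ0 : φ ≠ 0) {j l : τ} (hjl : j ≠ l)
    (hall : ∀ k, k = j ∨ k = l) (hj : e j v ≠ 0) (hl : e l v ≠ 0) : SLV F V ≤ X := by
  by_cases h1 : φ (e j v) = 0
  swap
  · exact h.SLV_le_of_good' ht hφv hjl hj hl h1
  by_cases h2 : ∀ x, φ (e j x) = 0
  · exact h.SLV_le_of_blk ht hφv hj h2 hφ0
  have hsum : ∀ x, e j x + e l x = x := fun x => by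
    rw [← h.sum x, ← Finset.sum_pair (f := fun k => e k (∑ i, e i x)) hjl, h.sum]
    conv_rhs => rw [← h.sum x]
    refine Finset.sum_subset (Finset.subset_univ _) fun k _ hk => ?_
    rcases hall k with rfl | rfl <;> simp at hk
  have h1' : φ (e l v) = 0 := by
    have := congrArg φ (hsum v)
    rwa [map_add, h1, zero_add, hφv] at this
  push Not at h2
  obtain ⟨x, hx⟩ := h2
  have hw : e j ((φ (e j x))⁻¹ • e j x) = (φ (e j x))⁻¹ • e j x := by simp [h.idem]
  have hw1 : φ ((φ (e j x))⁻¹ • e j x) = 1 := by simp [hx]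
  generalize (φ (e j x))⁻¹ • e j x = w at hw hw1
  obtain ⟨ψ, e1, e2, -⟩ := h.exists_dual' (h.idem l v) (u := 0) (j := l) (by simp)
    (by simpa using hl)
  obtain ⟨v1, hv1⟩ : ∃ v1, v1 = e j v := ⟨_, rfl⟩
  obtain ⟨v2, hv2⟩ : ∃ v2, v2 = e l v := ⟨_, rfl⟩
  obtain ⟨φ1, hφ1⟩ : ∃ φ1 : Dual F V, φ1 = φ ∘ₗ e j := ⟨_, rfl⟩
  obtain ⟨φ2, hφ2⟩ : ∃ φ2 : Dual F V, φ2 = φ ∘ₗ e l := ⟨_, rfl⟩
  have a1 : e j v1 = v1 := by rw [hv1, h.idem]
  have a2 : e l v2 = v2 := by rw [hv2, h.idem]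
  have a3 : ∀ x, φ1 (e j x) = φ1 x := fun x => by simp [hφ1, h.idem]
  have a4 : ∀ x, φ2 (e l x) = φ2 x := fun x => by simp [hφ2, h.idem]
  have b1 : φ1 v1 = 0 := by simp [hφ1, a1, hv1 ▸ h1]
  have b2 : φ2 v2 = 0 := by simp [hφ2, a2, hv2 ▸ h1']
  have b3 : φ1 v2 = 0 := h.cross hjl.symm a2 a3
  have b4 : φ2 v1 = 0 := h.cross hjl a1 a4
  have b5 : φ1 w = 1 := by simp [hφ1, hw, hw1]
  have b6 : φ2 w = 0 := h.cross hjl hw a4
  have b7 : ψ w = 0 := h.cross hjl hw e1
  have b8 : ψ v1 = 0 := h.cross hjl a1 e1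
  rw [← hv2] at e2 hl
  have hv : v = v1 + v2 := by rw [hv1, hv2, hsum]
  have hφ : φ = φ1 + φ2 := by ext x; simp [hφ1, hφ2, ← map_add, hsum]
  obtain ⟨d, hd, hd'⟩ := h.dil hjl (u := (c⁻¹ - 1) • w) (ψ := φ1) (u' := (c - 1) • v2) (ψ' := ψ)
    (by simp [hw]) a3 (by simp [a2]) e1 (by simp [b5, e2, hc0])
  have t2 : HasTv X (v1 + c • v2) (c • φ1 + φ2) := by
    have : d v = v1 + c • v2 := by
      rw [hv, hd']; simp [b1, b3, b8, e2]; module
    rw [← this]
    refine ht.conj' hd fun x => ?_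
    rw [hd', hφ]
    simp [b5, b3, b6, b2]
    field_simp; ring
  obtain ⟨k2, m2, n2⟩ := t2
  obtain ⟨k1, m1, n1⟩ := ht.neg_right hφv
  obtain ⟨k3, m3, n3⟩ := h.tv (ψ := (1 - c) • φ1) a1 (by simp [a3]) (by simp [b1])
  obtain ⟨k4, m4, n4⟩ := h.tv (ψ := (1 - c) • φ2) a2 (by simp [a4]) (by simp [b2])
  refine h.SLV_le_of_cross (j := l) (ψ := (c * c - 1) • φ1) a2 hl
    (fun x => by simp [h.cross hjl.symm (h.idem l x) a3]) (fun h0 => ?_)
    ⟨k4 * k3 * k2 * k1, mul_mem (mul_mem (mul_mem m4 m3) m2) m1, fun x => ?_⟩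
  · exact hc (by simpa [b5, sub_eq_zero] using LinearMap.congr_fun h0 w)
  · simp only [LinearEquiv.mul_apply, n1, n2, n3, n4]
    rw [hv, hφ]
    simp only [map_add, map_smul, LinearMap.add_apply, LinearMap.smul_apply, LinearMap.neg_apply,
      b1, b2, b3, b4, smul_eq_mul]
    module

theorem decompV_isMaximalIn_sq [FiniteDimensional F V] {t m : ℕ}
    {D : Fin t → Submodule F V} (ht : 2 ≤ t) (hm : 2 ≤ m) (h1 : iSupIndep D) (h2 : iSup D = ⊤)
    (h3 : ∀ i, finrank F (D i) = m) {c : F} (hc0 : c ≠ 0) (hc : c * c ≠ 1) (h2t : t = 2) :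
    IsMaximalIn (SLV F V) (decompV D ⊓ SLV F V) := by
  classical
  refine isMaximalIn_of inf_le_right (not_SLV_le_decompV ht (by omega) h1 h2 h3)
    fun X hHX hX g hg hgH => ?_
  obtain ⟨b, e, h, hD, he⟩ := exists_basis_of_decomp h1 h2 h3
  have hmem : ∀ j w, w ∈ D j → e j w = w := fun j w hw => by
    obtain ⟨x, rfl⟩ := (hD j).ge hw
    exact h.idem j x
  have hO : OverB e X := by
    refine ⟨h, fun k hk hk' => hHX ⟨mem_decompV_of_comm hD 1 fun j x => (hk' j x).symm, hk⟩,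
      fun σ => ?_, fun j u => ?_⟩
    · let k := b.equiv b (σ.prodCongr (Equiv.refl _))
      have hk : ∀ j x, k (e j x) = e (σ j) (k x) := fun j x => by
        have : (k : V →ₗ[F] V) ∘ₗ e j = e (σ j) ∘ₗ (k : V →ₗ[F] V) := b.ext fun y => by
          by_cases hy : y.1 = j <;> simp [k, he, hy]
        exact LinearMap.congr_fun this x
      have hd : LinearMap.det (k : V →ₗ[F] V) ≠ 0 := (LinearEquiv.isUnit_det' k).ne_zero
      let y : Fin t × Fin m := (⟨0, by omega⟩, ⟨0, by omega⟩)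
      obtain ⟨d, d1, d2⟩ := exists_dilat (u := b y)
        (ψ := ((LinearMap.det (k : V →ₗ[F] V))⁻¹ - 1) • b.coord y) (by simp [hd])
      have hy : ∀ x, b.coord y (e y.1 x) = b.coord y x := fun x => by
        have : b.coord y ∘ₗ e y.1 = b.coord y := b.ext fun z => by
          by_cases hz : z.1 = y.1
          · simp [he, hz]
          · simp [he, hz, show y ≠ z from fun h => hz (h ▸ rfl)]
        exact LinearMap.congr_fun this x
      have hkd : ∀ j x, (k * d) (e j x) = e (σ j) ((k * d) x) := fun j x => by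
        rw [LinearEquiv.mul_apply, LinearEquiv.mul_apply, ← hk, d2, d2]
        have := h.comm_two (j := y.1) (u := b y)
          (ψ := ((LinearMap.det (k : V →ₗ[F] V))⁻¹ - 1) • b.coord y) (by simp [he])
          (fun x => by rw [LinearMap.smul_apply, hy, LinearMap.smul_apply]) (u' := 0) (ψ' := 0)
          (k := j) (by simp) (by simp) j x
        simp only [smul_zero, add_zero] at this
        rw [this]
      exact ⟨k * d, hHX ⟨mem_decompV_of_comm hD σ hkd,
        mem_SLV.2 (by rw [det_mul', d1]; simp [hd])⟩, hkd⟩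
    · obtain ⟨w, hw, hn⟩ := exists_notMem_of_finrank (W := D j) {u} (by rw [h3]; simp; omega)
      exact ⟨w, hmem j w hw, by simpa using hn⟩
  obtain ⟨i, u, hu, hgu⟩ := exists_of_notMem_decompV h hD (by omega) h3 fun h' => hgH ⟨h', hX hg⟩
  have hu0 : u ≠ 0 := by rintro rfl; simpa using hgu i
  obtain ⟨j, l, hjl, hj, hl⟩ := (h.exists_two_comp hgu).resolve_left (by simpa using hu0)
  obtain ⟨w, hw, hn⟩ := hO.two i u
  obtain ⟨ψ, e1, e2, e3⟩ := h.exists_dual' hw hu hn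
  refine SLV_le_of_tv2 hO hc0 hc ((hO.tv hu e1 e3).conj hg)
    (by simp [e3]) (fun h0 => by simpa [e2] using LinearMap.congr_fun h0 (g w)) hjl (fun k => ?_)
    hj hl
  subst h2t
  omega

theorem exists_sq_ne_one [Fintype F] (h : 4 ≤ Fintype.card F) : ∃ c : F, c ≠ 0 ∧ c * c ≠ 1 := by
  classical
  obtain ⟨k, -, hk⟩ := Finset.exists_mem_notMem_of_card_lt_card (s := ({0, 1, -1} : Finset F))
    (t := Finset.univ) (by
      have := Finset.card_le_three (a := (0 : F)) (b := 1) (c := -1)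
      rw [Finset.card_univ]; omega)
  simp only [Finset.mem_insert, Finset.mem_singleton, not_or] at hk
  exact ⟨k, hk.1, fun h1 => (mul_self_eq_one_iff.1 h1).elim hk.2.1 hk.2.2⟩

theorem sl_two_blocks {ι : Type} [Fintype ι] [DecidableEq ι] {F : Type*} [Field F] [Fintype F]
    (h4 : 4 ≤ Fintype.card F) {m : ℕ} (hm : 2 ≤ m) {D : Fin 2 → Submodule F (ι → F)}
    (hD : IsMDecomposition m D) :
    IsMaximalIn (specialLinear ι F) (decompositionStabilizer D ⊓ specialLinear ι F) := by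
  rw [specialLinear_eq, decompositionStabilizer_eq, ← Subgroup.comap_inf]
  obtain ⟨c, h0, hc⟩ := exists_sq_ne_one h4
  exact isMaximalIn_comap _ (decompV_isMaximalIn_sq le_rfl hm hD.indep hD.iSup_eq_top hD.finrank_eq
    h0 hc rfl)

end CfsgLib.Low4
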