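import Mathlib
import Cfsg.Agent.Lib.ClMax.SLForm
import Cfsg.Agent.Lib.SUMax.Basic

/-! The similarity group of a unitary form is maximal in `SL(V)` in dimension at least four. -/

set_option autoImplicit false

namespace CfsgLib.Low4

open Cfsg Cfsg.Geo Module CfsgLib.Forms CfsgLib.ClMax CfsgLib.SUMax

universe u v

variable {F : Type u} [Field F] {σ : F →+* F} {V : Type v} [AddCommGroup V] [Module F V]
  [FiniteDimensional F V] {P : PQ σ V} {X : Subgroup (V ≃ₗ[F] V)}

theorem disjoint_perp_point {w : V} (hP : P.Nondeg) (hw : w = 0 ∨ P.B w w ≠ 0) :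
    Disjoint (P.perp (Submodule.span F {w})) (P.perp (P.perp (Submodule.span F {w}))) := by
  rw [P.perp_perp hP, Submodule.disjoint_def]
  intro x hx hx'
  obtain ⟨c, rfl⟩ := Submodule.mem_span_singleton.1 hx'
  rcases hw with rfl | hw
  · simp
  · have := P.mem_perp_span_singleton.1 hx
    rw [P.B_smul_right, mul_eq_zero] at this
    rw [this.resolve_right hw, zero_smul]

theorem orbit_at (hH : P.IsHerm) (h : HermLike P 2) (h4 : 4 ≤ finrank F V) {w : V}
    (hw : w = 0 ∨ P.B w w ≠ 0) {U : AddSubgroup V} (hU : InvAt P w U) {u : V} (hu : u ∈ U)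
    (hu0 : u ≠ 0) (hwu : P.B w u = 0) (y : V) (hy : P.B w y = 0) : y ∈ U := by
  have key : ∀ x, x ≠ 0 → P.B w x = 0 → x ∉ Submodule.span F {w} := fun x h0 hx h' =>
    h0 (Submodule.disjoint_def.1 (disjoint_perp_point h.nondeg hw) x
      (P.mem_perp_span_singleton.2 hx) (by rwa [P.perp_perp h.nondeg]))
  obtain ⟨δ, hδ, hδ'⟩ := hH.exists_trace_zero
  obtain ⟨z, hz, hwz, hzu⟩ := h.exists_sing_ne h4 (key u hu0 hwu)
  have hz0 : z ≠ 0 := by rintro rfl; simp at hzu
  have h1 := h.tv_mem hU hz hδ' hwz hu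
  have h3 : 3 ≤ finrank F (P.perp (Submodule.span F {w})) := by
    have e1 := P.finrank_perp h.nondeg (Submodule.span F {w})
    have e2 : finrank F (Submodule.span F {w}) ≤ 1 := by
      simpa using finrank_span_le_card (R := F) ({w} : Set V)
    omega
  have hall : ∀ x, P.B x x = 0 → P.B w x = 0 → x ∈ U := fun x hx hwx => by
    by_cases h0 : x = 0
    · rw [h0]; exact U.zero_mem
    obtain ⟨g, hg, g1, g2⟩ := exists_su_move hH h.nondeg (disjoint_perp_point h.nondeg hw)
      (w := (δ * P.B z u) • z) (w' := x) (P.mem_perp_span_singleton.2 (by simp [hwz]))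
      (P.mem_perp_span_singleton.2 hwx) (smul_ne_zero (mul_ne_zero hδ hzu) hz0) h0
      (by simp [hx, hz]) (Or.inl h3)
    rw [← g2]
    exact hU g hg.1 hg.2 (g1 w (by
      rw [P.perp_perp h.nondeg]; exact Submodule.mem_span_singleton_self w)) _ h1
  obtain ⟨z', hz', hwz', hzz⟩ := h.exists_sing_ne h4 (key z hz0 hwz)
  exact h.full_of_lines hU hz' hwz' hwz hzz (fun c => hall _ (by simp [hz]) (by simp [hwz]))
    (fun c => hall _ (by simp [hz']) (by simp [hwz'])) y hy

theorem SLV_le_of_tv_ns (hH : P.IsHerm) (h : HermLike P 2) (h4 : 4 ≤ finrank F V)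
    (hX : ∀ g : V ≃ₗ[F] V, P.IsIso g → g ∈ SLV F V → g ∈ X) {w : V} {φ : Dual F V}
    (hw : P.B w w ≠ 0) (hφ : φ w = 0) (hφ0 : φ ≠ 0) (ht : HasTv X w φ) : SLV F V ≤ X := by
  obtain ⟨u, rfl⟩ := P.exists_B_eq h.nondeg φ
  refine SLV_le_of_irred (v := w) (by rintro rfl; simp at hw) (fun φ hφ' => ?_) fun U hU => ?_
  · let U : AddSubgroup V :=
      { carrier := {u | P.B u w = 0 ∧ HasTv X w (P.B u)}
        add_mem' := fun {a b} ha hb => ⟨by simp [ha.1, hb.1], by
          rw [map_add]; exact ha.2.add_right hb.2 ha.1⟩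
        zero_mem' := ⟨by simp, by rw [map_zero]; exact hasTv_zero_right w⟩
        neg_mem' := fun {a} ha => ⟨by simp [ha.1], by rw [map_neg]; exact ha.2.neg_right ha.1⟩ }
    obtain ⟨y, rfl⟩ := P.exists_B_eq h.nondeg φ
    refine (orbit_at hH h h4 (Or.inr hw) (U := U) (fun g h1 h2 h3 a ha => ⟨?_, ?_⟩) (u := u)
      ⟨hφ, ht⟩ (by rintro rfl; simp at hφ0) (P.B_eq_zero_comm.1 hφ) y
      (P.B_eq_zero_comm.1 hφ')).2
    · rw [← h3, h1.B_eq]; exact ha.1
    · rw [← h3]; exact ha.2.conj' (hX g h1 h2) (h1.B_eq a)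
  · refine or_iff_not_imp_left.2 fun h0 => eq_top_iff.2 fun y _ => ?_
    obtain ⟨a, ha, ha0⟩ := Submodule.exists_mem_ne_zero_of_ne_bot h0
    exact orbit_at hH h h4 (Or.inl rfl) (U := U.toAddSubgroup)
      (fun g h1 h2 _ => hU g (hX g h1 h2)) ha ha0 (by simp) y (by simp)

theorem isMaximalIn_unitary4 (hH : P.IsHerm) (h : HermLike P 2) (h4 : 4 ≤ finrank F V)
    {y : V} (hy : P.B y y ≠ 0) :
    IsMaximalIn (SLV F V) (simV (fun x y => P.B x y) ⊓ SLV F V) := by
  obtain ⟨δ, hδ, hδ'⟩ := hH.exists_trace_zero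
  refine h.isMaximalIn_of_tv (by omega) hy fun X hX g hg hg' => ?_
  obtain ⟨a, ha⟩ := h.exists_dualMap g
  obtain ⟨v, hv, hav⟩ := h.exists_sing_of_not_sim (by omega) hg' ha
  have htv : ∀ v, P.B v v = 0 → HasTv X v (δ • P.B v) := fun v hv => by
    obtain ⟨t, h1, h2, h3⟩ := h.exists_qrefl (x := v) (c := δ) (by simpa [hv] using hδ')
    exact ⟨t, hX t h1 (mem_SLV.2 (by simp [h2, hv])), h3⟩
  have ht : HasTv X (g v) (P.B (σ δ • a v)) := (htv v hv).conj' hg fun x => by simp [ha, P.σσ]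
  have hw0 : g v ≠ 0 := by
    rintro h0; rw [(LinearEquiv.map_eq_zero_iff g).1 h0] at hav; simp at hav
  have hwu : P.B (σ δ • a v) (g v) = 0 := by simp [ha, hv]
  have hu : σ δ • a v ∉ Submodule.span F {g v} :=
    (Submodule.smul_mem_iff _ (by simpa using hδ)).not.2 hav
  generalize g v = w at ht hw0 hwu hu
  generalize σ δ • a v = u at ht hwu hu
  by_cases hww : P.B w w = 0
  swap
  · refine SLV_le_of_tv_ns hH h h4 hX hww hwu (fun h0 => hu ?_) ht
    rw [h.nondeg u fun y => by simp [h0]]; exact zero_mem _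
  obtain ⟨θ, hθ⟩ := hH.exists_trace_one
  obtain ⟨b, hb, hbw⟩ := P.exists_dual_vec h.nondeg _ hu
  replace hbw := hbw w (Submodule.mem_span_singleton_self w)
  obtain ⟨k, k1, k2, k3⟩ := h.exists_eichler (z := w) (a := σ (σ θ) • b) hww
    (by simp [P.B_eq_zero_comm.1 hbw])
  have e1 : k w = w := by simp [k3, hww, hbw]
  have e2 : k u = u + σ θ • w := by simp [k3, hb, P.B_eq_zero_comm.1 hwu, P.σσ]
  have t1 : HasTv X w (P.B (k u)) := by
    conv_lhs => rw [← e1]
    exact ht.conj' (hX k k1 k2) (k1.B_eq u)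
  have t2 : HasTv X w (θ • P.B w) := by
    have := t1.sub_right ht (by simp [e2, hwu, hww]) hwu
    simpa [e2, P.σσ] using this
  obtain ⟨w', h1, h2, -⟩ := P.exists_partner h.nondeg ⊥ (h.sing_iff.2 hww) (by simpa using hw0)
    (by simp)
  have h3 : P.B w w' = 1 := by rw [← h.conj, h2, map_one]
  have h5 := h.sing_iff.1 h1
  refine SLV_le_of_tv_ns hH h h4 hX ?_ ?_ (fun h0 => hδ ?_)
    (t2.conj_tv (htv w' h5) (by simp [hww]))
  · simp [h2, h3, h5, hww, add_comm, hθ]
  · simp [h2, h3, h5, hww]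
  · simpa [h2, hww] using LinearMap.congr_fun h0 w

section Matrices

variable {ι : Type} [Fintype ι] [DecidableEq ι] {F : Type*} [Field F] [Finite F]

theorem sl_unitary {σ : F ≃+* F} {f : (ι → F) → (ι → F) → F}
    (hf : IsUnitaryForm σ f) (h6 : 4 ≤ Fintype.card ι) :
    IsMaximalIn (specialLinear ι F) (similarityGroup f ⊓ specialLinear ι F) := by
  have hσ : (σ : F →+* F) ≠ RingHom.id F := fun h =>
    hf.ne_refl (RingEquiv.ext fun x => congrArg (fun τ : F →+* F => τ x) h)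
  let B : (ι → F) →ₛₗ[(σ : F →+* F)] (ι → F) →ₗ[F] F :=
    LinearMap.mk₂'ₛₗ (σ : F →+* F) (RingHom.id F) (fun u v => f v u)
      (fun u u' v => by rw [hf.herm, hf.add_left, map_add, ← hf.herm, ← hf.herm])
      (fun c u v => by rw [hf.herm, hf.smul_left, map_mul, ← hf.herm]; rfl)
      (fun u v v' => hf.add_left _ _ _) (fun c u v => hf.smul_left _ _ _)
  have hH := ofHerm_isHerm_of_finite hσ hf.involutive B ⟨fun u v => (hf.herm _ _).symm⟩
  set P := ofHerm hσ hf.involutive B ⟨fun u v => (hf.herm _ _).symm⟩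
  have hnd : P.Nondeg := fun x hx => by
    by_contra h0
    obtain ⟨y, hy⟩ := (hf.nondegenerate x h0).1
    exact hy (hx y)
  have h : HermLike P 2 := by
    refine ⟨hnd, hH.ε_eq, hH.mem_Λ, fun W hW => ?_⟩
    obtain ⟨x, hx, hx0⟩ := Submodule.exists_mem_ne_zero_of_ne_bot
      (show W ≠ ⊥ by rintro rfl; simp at hW)
    by_cases hxx : P.B x x = 0
    · exact ⟨x, hx, hx0, hxx⟩
    obtain ⟨y, ⟨hy, hxy⟩, hy0⟩ := Submodule.exists_mem_ne_zero_of_ne_bot
      (p := W ⊓ P.perp (Submodule.span F {x})) (fun h0 => by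
        have h1 := Submodule.finrank_sup_add_finrank_inf_eq W (P.perp (Submodule.span F {x}))
        have h2 := P.finrank_perp hnd (Submodule.span F {x})
        have h3 := Submodule.finrank_le (W ⊔ P.perp (Submodule.span F {x}))
        rw [h0, finrank_bot] at h1
        rw [finrank_span_singleton hx0] at h2
        omega)
    replace hxy : P.B x y = 0 := P.mem_perp_span_singleton.1 hxy
    obtain ⟨t, ht⟩ := hH.exists_smul_norm_eq hxx (c := -P.B y y) (by rw [map_neg, hH.conj])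
    refine ⟨t • x + y, W.add_mem (W.smul_mem _ hx) hy, fun h0 => hy0 ?_, ?_⟩
    · have := congrArg (P.B x) h0
      simp only [map_add, map_smul, hxy, add_zero, map_zero, smul_eq_mul, mul_eq_zero, hxx,
        or_false] at this
      simpa [this] using h0
    · rw [P.B_add_left, P.B_add_right, P.B_add_right, ht]
      simp [hxy, P.B_eq_zero_comm.1 hxy]
  have : Nonempty ι := Fintype.card_pos_iff.1 (by omega)
  obtain ⟨x, hx⟩ := exists_ne (0 : ι → F)
  obtain ⟨x', hx'⟩ := (hf.nondegenerate x hx).1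
  obtain ⟨y, -, hy⟩ := hH.exists_nonisotropic ⊤ (x := x) (y := x') trivial trivial hx'
  have := isMaximalIn_comap (toEquiv (ι := ι) (F := F))
    (isMaximalIn_unitary4 hH h (by simp; omega) hy)
  rw [Subgroup.comap_inf, ← specialLinear_eq] at this
  convert this using 2
  ext g
  exact ⟨fun ⟨c, hc⟩ => ⟨c, fun u v => hc v u⟩, fun ⟨c, hc⟩ => ⟨c, fun u v => hc v u⟩⟩

end Matrices

end CfsgLib.Low4
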