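import Mathlib
import Cfsg.Agent.Lib.ClMax.SLForm
import Cfsg.Agent.Lib.RootMax.NDCases

/-! Four-dimensional orthogonal spaces in odd characteristic; overgroups of `SO₄` in `SL₄`
containing a transvection with singular centre. -/

set_option autoImplicit false

namespace CfsgLib.Low4

open Cfsg Cfsg.Geo Module CfsgLib.Forms CfsgLib.ClMax

theorem exists_conj_mem {G : Type*} [Group G] [Finite G] {p : ℕ} [Fact p.Prime] {S Y : Subgroup G}
    (hSY : S ≤ Y) (hS : ∀ s ∈ S, s ^ p = 1)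
    (hN : ∀ n ∈ Y, (∃ k, n ^ p ^ k = 1) → (∀ s ∈ S, n * s * n⁻¹ ∈ S) → n ∈ S) {x : G} (hx : x ∈ Y)
    (hk : x ^ p = 1) : ∃ y ∈ Y, y * x * y⁻¹ ∈ S := by
  obtain ⟨T, hT⟩ := (show IsPGroup p (S.subgroupOf Y) from fun s => ⟨1, Subtype.ext (Subtype.ext
    (by simpa using hS _ s.2))⟩).exists_le_sylow
  obtain ⟨U, hU⟩ := (show IsPGroup p (Subgroup.zpowers (⟨x, hx⟩ : Y)) from fun s => ⟨1, by
    obtain ⟨_, i, rfl⟩ := s
    refine Subtype.ext (Subtype.ext ?_)
    simp only [pow_one, SubmonoidClass.mk_pow, SubgroupClass.coe_pow, SubgroupClass.coe_zpow,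
      OneMemClass.coe_one]
    rw [← zpow_natCast, ← zpow_mul, mul_comm, zpow_mul, zpow_natCast, hk, one_zpow]⟩).exists_le_sylow
  have h1 : (T : Subgroup Y) ≤ S.subgroupOf Y := by
    have := T.isPGroup'.isNilpotent
    have h2 := (normalizerCondition_iff_only_full_group_self_normalizing.1
      (normalizerCondition_of_isNilpotent (G := (T : Subgroup Y))))
      ((S.subgroupOf Y).subgroupOf T) (le_antisymm (fun n hn => ?_) Subgroup.le_normalizer)
    · exact Subgroup.subgroupOf_eq_top.1 h2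
    obtain ⟨k, hk⟩ := T.isPGroup' n
    refine hN _ n.1.2 ⟨k, congrArg (fun t : (T : Subgroup Y) => (t.1 : G)) hk⟩ fun s hs => ?_
    exact (Subgroup.mem_normalizer_iff.1 hn ⟨⟨s, hSY hs⟩, hT hs⟩).1 hs
  obtain ⟨y, hy⟩ := MulAction.exists_smul_eq Y U T
  refine ⟨y, y.2, h1 (x := y * ⟨x, hx⟩ * y⁻¹) ?_⟩
  rw [← hy]
  exact Subgroup.smul_mem_pointwise_smul _ (MulAut.conj y) _ (hU (Subgroup.mem_zpowers _))

variable {F : Type*} [Field F] {V : Type*} [AddCommGroup V] [Module F V]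
  [FiniteDimensional F V] {P : PQ (RingHom.id F) V} {X : Subgroup (V ≃ₗ[F] V)}

/-- A four-dimensional orthogonal space in odd characteristic. -/
structure O4 (P : PQ (RingHom.id F) V) : Prop extends HermLike P 3 where
  h2 : (2 : F) ≠ 0
  h4 : finrank F V = 4

namespace O4

variable (h : O4 P)
include h

omit [FiniteDimensional F V] in
theorem sym (x y : V) : P.B x y = P.B y x := h.toHermLike.conj x y

omit [FiniteDimensional F V] in
theorem isIso {g : V → V} (hg : ∀ x y, P.B (g x) (g y) = P.B x y) : P.IsIso g :=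
  ⟨hg, fun x => (h.mem_Λ _).2 (by
    have h1 := h.toHermLike.two_N (g x)
    have h2 := h.toHermLike.two_N x
    simp only [RingHom.id_apply]; linear_combination h1 - h2 + hg x x)⟩

theorem exists_ns_perp {W : Submodule F V} (hW : Disjoint W (P.perp W)) (h3 : finrank F W < 4) :
    ∃ c ∈ P.perp W, P.B c c ≠ 0 := by
  by_contra hc
  push Not at hc
  obtain ⟨x, hx, hx0⟩ := Submodule.exists_mem_ne_zero_of_ne_bot (p := P.perp W) fun h0 => by
    have := P.finrank_perp h.nondeg W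
    rw [h0, finrank_bot, h.h4] at this
    omega
  refine hx0 (Submodule.disjoint_def.1 hW x ?_ hx)
  rw [← P.perp_perp h.nondeg W]
  intro y hy
  have := hc _ (add_mem hx hy)
  rw [P.B_add_left, P.B_add_right, P.B_add_right, hc x hx, hc y hy, h.sym x y] at this
  exact mul_left_cancel₀ h.h2 (by linear_combination this)

theorem exists_ns {a b c : V} (ha : a = 0 ∨ P.B a a ≠ 0) (hb : b = 0 ∨ P.B b b ≠ 0)
    (hc : c = 0 ∨ P.B c c ≠ 0) (hab : P.B a b = 0) (hac : P.B a c = 0) (hbc : P.B b c = 0) :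
    ∃ d, P.B d d ≠ 0 ∧ P.B a d = 0 ∧ P.B b d = 0 ∧ P.B c d = 0 := by
  obtain ⟨d, hd, hdd⟩ := h.exists_ns_perp (W := Submodule.span F (Set.range ![a, b, c])) (by
    rw [P.disjoint_perp_iff]
    intro x hx hx'
    obtain ⟨t, rfl⟩ := (Submodule.mem_span_range_iff_exists_fun F).1 hx
    have h0 := hx' _ (Submodule.subset_span ⟨0, rfl⟩)
    have h1 := hx' _ (Submodule.subset_span ⟨1, rfl⟩)
    have h2 := hx' _ (Submodule.subset_span ⟨2, rfl⟩)
    simp [Fin.sum_univ_three, hab, hac, hbc, h.sym b a, h.sym c a, h.sym c b] at h0 h1 h2 ⊢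
    have k : ∀ (t : F) (a : V), a = 0 ∨ P.B a a ≠ 0 → t = 0 ∨ P.B a a = 0 → t • a = 0 := by
      rintro t a (rfl | h1) h2
      · simp
      · simp [h2.resolve_right h1]
    simp [k _ _ ha h0, k _ _ hb h1, k _ _ hc h2])
    (lt_of_le_of_lt (by simpa [Set.finrank] using finrank_range_le_card (R := F) ![a, b, c])
      (by norm_num : 3 < 4))
  exact ⟨d, hdd, hd _ (Submodule.subset_span ⟨0, rfl⟩), hd _ (Submodule.subset_span ⟨1, rfl⟩),
    hd _ (Submodule.subset_span ⟨2, rfl⟩)⟩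

theorem exists_ns_pair {e f : V} (he : P.B e e = 0) (hf : P.B f f = 0) (hef : P.B e f = 1) {a : V}
    (ha : a = 0 ∨ P.B a a ≠ 0) (hea : P.B e a = 0) (hfa : P.B f a = 0) :
    ∃ d, P.B d d ≠ 0 ∧ P.B e d = 0 ∧ P.B f d = 0 ∧ P.B a d = 0 := by
  have h2 := h.h2
  obtain ⟨d, h1, h3, h4, h5⟩ := h.exists_ns (a := e + f) (b := e - f) (Or.inr (by
    simp [he, hf, hef, h.sym f e, one_add_one_eq_two, h2])) (Or.inr (by
    simp [he, hf, hef, h.sym f e, ← neg_add', one_add_one_eq_two, h2])) ha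
    (by simp [he, hf, hef, h.sym f e]) (by simp [hea, hfa]) (by simp [hea, hfa])
  rw [P.B_add_left] at h3
  rw [P.B_sub_left] at h4
  exact ⟨d, h1, mul_left_cancel₀ h2 (by linear_combination h3 + h4),
    mul_left_cancel₀ h2 (by linear_combination h3 - h4), h5⟩

theorem exists_partner {z : V} (hz : P.B z z = 0) (hz0 : z ≠ 0) :
    ∃ f, P.B f f = 0 ∧ P.B z f = 1 := by
  obtain ⟨f, h1, h2, -⟩ := P.exists_partner h.nondeg ⊥ (h.toHermLike.sing_iff.2 hz)
    (by simpa using hz0) (by simp)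
  exact ⟨f, h1.self_eq, by rw [h.sym, h2]⟩

theorem exists_refl {x : V} (hx : P.B x x ≠ 0) : ∃ r : V ≃ₗ[F] V, P.IsIso r ∧
    LinearMap.det (r : V →ₗ[F] V) = -1 ∧ ∀ v, r v = v + (-2 / P.B x x * P.B x v) • x := by
  obtain ⟨r, r1, r2, r3⟩ := h.toHermLike.exists_qrefl (x := x) (c := -2 / P.B x x) (by
    simp only [RingHom.id_apply]; field_simp; ring)
  exact ⟨r, r1, by rw [r2, div_mul_cancel₀ _ hx]; ring, r3⟩

theorem exists_refl2 {a c : V} (ha : P.B a a ≠ 0) (hc : P.B c c ≠ 0) : ∃ k : V ≃ₗ[F] V,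
    P.IsIso k ∧ k ∈ SLV F V ∧ ∀ v, P.B c v = 0 → k v = v + (-2 / P.B a a * P.B a v) • a := by
  obtain ⟨r, r1, r2, r3⟩ := h.exists_refl ha
  obtain ⟨s, s1, s2, s3⟩ := h.exists_refl hc
  refine ⟨r * s, r1.comp s1, mem_SLV.2 ?_, fun v hv => by simp [r3, s3, hv]⟩
  rw [show ((r * s : V ≃ₗ[F] V) : V →ₗ[F] V) = (r : V →ₗ[F] V) * s from rfl, map_mul, r2, s2]
  simp

theorem span_ns {w u : V} (hw : w = 0 ∨ P.B w w ≠ 0) (hu : P.B u u ≠ 0) (hwu : P.B w u = 0)
    {U : Submodule F V} (hU : ∀ g : V ≃ₗ[F] V, P.IsIso g → g ∈ SLV F V → g w = w → ∀ u ∈ U, g u ∈ U)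
    (huU : u ∈ U) (y : V) (hy : P.B w y = 0) : y ∈ U := by
  have key : ∀ a, P.B w a = 0 → P.B u a = 0 → P.B (u + a) (u + a) ≠ 0 → a ∈ U := by
    intro a hwa hua ha
    obtain ⟨c, hc, h1, h2, -⟩ := h.exists_ns hw (Or.inr hu) (Or.inl rfl) hwu (by simp) (by simp)
    obtain ⟨k, k1, k2, k3⟩ := h.exists_refl2 ha hc
    have h3 := U.sub_mem (hU k k1 k2 (by
      rw [k3 w (by rw [h.sym, h1]), h.sym _ w]; simp [hwu, hwa]) u huU) huU
    rw [k3 u (by rw [h.sym, h2]), add_sub_cancel_left, U.smul_mem_iff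
      (mul_ne_zero (div_ne_zero (by simpa using h.h2) ha) (by simpa [h.sym a u, hua] using hu))] at h3
    simpa using U.sub_mem h3 huU
  suffices ∀ y, P.B w y = 0 → P.B u y = 0 → y ∈ U by
    simpa using U.add_mem (this (y - (P.B u y / P.B u u) • u) (by simp [hy, hwu]) (by simp [hu]))
      (U.smul_mem (P.B u y / P.B u u) huU)
  intro y hy huy
  by_cases h1 : P.B (u + y) (u + y) = 0
  swap
  · exact key y hy huy h1
  have h2 : P.B u u + P.B y y = 0 := by simpa [huy, h.sym y u] using h1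
  obtain ⟨d, hd, h3, h4, h5⟩ := h.exists_ns hw (Or.inr hu) (Or.inr fun h0 => hu (by
    linear_combination h2 - h0)) hwu hy huy
  have e : ∀ s : F, s * s = 1 → y + s • d ∈ U := fun s hs => key _ (by simp [hy, h3])
    (by simp [huy, h4]) fun h0 => hd (by
      simp only [P.B_add_left, P.B_add_right, P.B_smul_left, P.B_smul_right, huy, h4, h5,
        h.sym y u, h.sym d u, h.sym d y, RingHom.id_apply] at h0
      linear_combination h0 - h2 - P.B d d * hs)
  have := U.add_mem (e 1 (by simp)) (e (-1) (by simp))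
  rwa [show y + (1 : F) • d + (y + (-1 : F) • d) = (2 : F) • y by module, U.smul_mem_iff h.h2]
    at this

variable (hX : ∀ g : V ≃ₗ[F] V, P.IsIso g → g ∈ SLV F V → g ∈ X)
include hX

theorem SLV_le_of_ns {w u : V} (hw : P.B w w ≠ 0) (hu : P.B u u ≠ 0) (hwu : P.B w u = 0)
    (ht : ∀ c : F, HasTv X w (c • P.B u)) : SLV F V ≤ X := by
  have hw0 : w ≠ 0 := by rintro rfl; simp at hw
  have hF : FullTv X w := fun φ hφ => by
    let U : Submodule F V :=
      { carrier := {u | P.B u w = 0 ∧ ∀ c : F, HasTv X w (c • P.B u)}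
        add_mem' := fun {a b} ha hb => ⟨by simp [ha.1, hb.1], fun c => by
          rw [map_add, smul_add]; exact (ha.2 c).add_right (hb.2 c) (by simp [ha.1])⟩
        zero_mem' := ⟨by simp, fun c => by simpa using hasTv_zero_right w⟩
        smul_mem' := fun t a ha => ⟨by simp [ha.1], fun c => by
          simpa [smul_smul] using ha.2 (c * t)⟩ }
    obtain ⟨y, rfl⟩ := P.exists_B_eq h.nondeg φ
    simpa using (h.span_ns (Or.inr hw) hu hwu (U := U) (fun g h1 h2 h3 a ha =>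
      ⟨by rw [← h3, h1.B_eq]; exact ha.1, fun c => by
        rw [← h3]; exact (ha.2 c).conj' (hX g h1 h2) fun x => by simp [h1.B_eq]⟩)
      ⟨by rw [h.sym, hwu], ht⟩ y (by rw [h.sym, hφ])).2 1
  refine SLV_le_of_irred hw0 hF fun U hU => or_iff_not_imp_left.2 fun h0 => eq_top_iff.2 fun y _ =>
    h.span_ns (Or.inl rfl) hw (by simp) (fun g h1 h2 _ => hU g (hX g h1 h2)) ?_ y (by simp)
  obtain ⟨a, ha, ha0⟩ := Submodule.exists_mem_ne_zero_of_ne_bot h0
  by_cases h1 : a ∈ Submodule.span F {w}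
  · obtain ⟨t, rfl⟩ := Submodule.mem_span_singleton.1 h1
    exact (U.smul_mem_iff (by rintro rfl; simp at ha0)).1 ha
  obtain ⟨b, hb, hb'⟩ := P.exists_dual_vec h.nondeg _ h1
  obtain ⟨g, hg, e⟩ := hF (P.B b) (hb' w (Submodule.mem_span_singleton_self w))
  simpa [e, hb] using U.sub_mem (hU g hg a ha) ha

theorem SLV_le_of_sing {z : V} (hz : P.B z z = 0) (hz0 : z ≠ 0) {φ : Dual F V} (hφ : φ z = 0)
    (hφ0 : φ ≠ 0) (ht : HasTv X z φ) : SLV F V ≤ X := by
  have h2 := h.h2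
  obtain ⟨u, rfl⟩ := P.exists_B_eq h.nondeg φ
  obtain ⟨c, hc, ht⟩ : ∃ c : F, c ≠ 0 ∧ HasTv X z (c • P.B z) := by
    by_cases h1 : u ∈ Submodule.span F {z}
    · obtain ⟨t, rfl⟩ := Submodule.mem_span_singleton.1 h1
      exact ⟨t, by rintro rfl; simp at hφ0, by simpa using ht⟩
    obtain ⟨b, hb, hb'⟩ := P.exists_dual_vec h.nondeg _ h1
    replace hb' := hb' z (Submodule.mem_span_singleton_self z)
    obtain ⟨k, k1, k2, k3⟩ := h.toHermLike.exists_eichler (a := b) hz (by rw [h.sym, hb'])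
    have e1 : k z = z := by simp [k3, hz, hb']
    have e2 : k u = u + z := by simp [k3, hb, h.sym z u, hφ]
    have := ht.conj' (hX k k1 k2) (k1.B_eq u)
    rw [e1, e2] at this
    exact ⟨1, one_ne_zero, by simpa using this.sub_right ht (by simp [hφ, hz]) hφ⟩
  obtain ⟨f, hf, hzf⟩ := h.exists_partner hz hz0
  have hfz : P.B f z = 1 := by rw [h.sym, hzf]
  have h3 : ∀ s : F, HasTv X z ((c * s ^ 2) • P.B z) := fun s => by
    by_cases hs : s = 0
    · simpa [hs] using hasTv_zero_right z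
    obtain ⟨k, k1, k2, k3, -⟩ := RootMax.exists_dil h.nondeg (h.toHermLike.sing_iff.2 hz)
      (h.toHermLike.sing_iff.2 hf) hfz hs
    have := ht.conj' (hX k k1 (mem_SLV.2 (by simp [k2, hs]))) (φ' := c • P.B (k z))
      fun x => by simp [k1.B_eq]
    rw [k3, hasTv_smul_iff] at this
    exact this.congr fun x => by simp; module
  have h4 : ∀ d : F, HasTv X z (d • P.B z) := fun d =>
    ((h3 ((d / c + 1) / 2)).sub_right (h3 ((d / c - 1) / 2)) (by simp [hz]) (by simp [hz])).congr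
      fun x => by simp; match_scalars; field_simp; ring
  obtain ⟨a, ha, hza, hfa, -⟩ := h.exists_ns_pair hz hf hzf (Or.inl rfl) (by simp) (by simp)
  have h5 : P.B (z - f) (z - f) = -2 := by simp [hz, hf, hzf, hfz]; ring
  obtain ⟨k, k1, k2, k3⟩ := h.exists_refl2 (a := z - f) (by rw [h5]; simpa using h2) ha
  have e : k z = f := by rw [k3 z (by rw [h.sym, hza]), h5]; simp [hz, hfz, h2]
  refine h.SLV_le_of_ns hX (w := f + z) (u := z - f) (by
    simp [hz, hf, hzf, hfz, one_add_one_eq_two, h2]) (by rw [h5]; simpa using h2)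
    (by simp [hz, hf, hzf, hfz]) fun d => ?_
  have h6 := (h4 (-d)).conj' (hX k k1 k2) (φ' := (-d) • P.B (k z)) fun x => by simp [k1.B_eq]
  rw [e] at h6
  convert (h4 1).conj_tv h6 (by simp [hz]) using 1
  · simp [hzf]
  · ext x; simp [hfz]; ring

end O4

end CfsgLib.Low4
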