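import Mathlib
import Cfsg.Agent.Lib.Low4.SLO4a

/-! The similarity group of a quadratic form in odd characteristic is maximal in `SL₄`. -/

set_option autoImplicit false

namespace CfsgLib.Low4

open Cfsg Cfsg.Geo Module CfsgLib.Forms CfsgLib.ClMax

variable {F : Type*} [Field F] {V : Type*} [AddCommGroup V] [Module F V]
  [FiniteDimensional F V] {P : PQ (RingHom.id F) V} {X : Subgroup (V ≃ₗ[F] V)}

/-- `g` is the Eichler map with centre `z` and direction `a`. -/
def Eich (P : PQ (RingHom.id F) V) (z a : V) (g : V ≃ₗ[F] V) : Prop :=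
  ∀ v, g v = v + (P.B a v - P.N a * P.B z v) • z - P.B z v • a

/-- The elements of `X` acting trivially on the flag `z < z^⊥ < V`. -/
def flagU (P : PQ (RingHom.id F) V) (X : Subgroup (V ≃ₗ[F] V)) (z : V) : Subgroup (V ≃ₗ[F] V) where
  carrier := {g | g ∈ X ∧ g z = z ∧ (∀ v, P.B z v = 0 → ∃ c : F, g v = v + c • z) ∧
    ∀ v, P.B z (g v) = P.B z v}
  mul_mem' := by
    rintro a b ⟨a1, a2, a3, a4⟩ ⟨b1, b2, b3, b4⟩
    refine ⟨X.mul_mem a1 b1, by simp [a2, b2], fun v hv => ?_, fun v => by simp [a4, b4]⟩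
    obtain ⟨c, hc⟩ := a3 v hv
    obtain ⟨d, hd⟩ := b3 v hv
    exact ⟨c + d, by simp [hc, hd, a2, add_smul, add_assoc]⟩
  one_mem' := ⟨X.one_mem, rfl, fun v _ => ⟨0, by simp⟩, fun _ => rfl⟩
  inv_mem' := by
    rintro a ⟨a1, a2, a3, a4⟩
    refine ⟨X.inv_mem a1, a.injective (by rw [apply_inv_apply, a2]), fun v hv => ?_,
      fun v => by rw [← a4, apply_inv_apply]⟩
    obtain ⟨c, hc⟩ := a3 v hv
    exact ⟨-c, a.injective (by rw [apply_inv_apply, map_add, map_smul, a2, hc]; simp)⟩

/-- The stabiliser in `X` of a point. -/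
def ptStab (X : Subgroup (V ≃ₗ[F] V)) (z : V) : Subgroup (V ≃ₗ[F] V) where
  carrier := {g | g ∈ X ∧ ∃ t : F, t ≠ 0 ∧ g z = t • z}
  mul_mem' := by
    rintro a b ⟨a1, s, hs, a2⟩ ⟨b1, t, ht, b2⟩
    exact ⟨X.mul_mem a1 b1, t * s, mul_ne_zero ht hs, by simp [a2, b2, smul_smul]⟩
  one_mem' := ⟨X.one_mem, 1, one_ne_zero, by simp⟩
  inv_mem' := by
    rintro a ⟨a1, s, hs, a2⟩
    exact ⟨X.inv_mem a1, s⁻¹, inv_ne_zero hs, a.injective (by simp [apply_inv_apply, a2, hs])⟩

theorem eq_one_of_pow {p k : ℕ} [Fact p.Prime] [CharP F p] {t : F} (ht : t ^ p ^ k = 1) : t = 1 :=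
  sub_eq_zero.1 (pow_eq_zero_iff (pow_ne_zero k (Fact.out : p.Prime).ne_zero) |>.1
    (by rw [sub_pow_char_pow, ht, one_pow, sub_self]))

namespace O4

variable (h : O4 P)
include h

omit [FiniteDimensional F V] in
theorem eich_pow {z a : V} (hz : P.B z z = 0) (hza : P.B z a = 0) {g : V ≃ₗ[F] V}
    (hg : Eich P z a g) (p : ℕ) [CharP F p] : g ^ p = 1 := by
  have key : ∀ (m : ℕ) v, (g ^ m) v = v + (m * P.B a v - m ^ 2 * P.N a * P.B z v) • z -
      (m * P.B z v) • a := by
    intro m v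
    induction m with
    | zero => simp
    | succ m ih =>
      rw [pow_succ', LinearEquiv.mul_apply, ih, hg]
      simp only [P.B_add_right, P.B_sub_right, P.B_smul_right, hz, hza, h.sym a z,
        ← h.toHermLike.two_N a]
      push_cast
      module
  ext v
  simp [key]

omit [FiniteDimensional F V] in
theorem eich_sq {z a : V} (hz : P.B z z = 0) (hza : P.B z a = 0) {g : V ≃ₗ[F] V}
    (hg : Eich P z a g) (v : V) : g (g v) - (2 : F) • g v + v = (-P.B a a * P.B z v) • z := by
  rw [hg, hg]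
  simp only [P.B_add_right, P.B_sub_right, P.B_smul_right, hz, hza, h.sym a z,
    ← h.toHermLike.two_N a]
  module

theorem mem_span_of_perp {z a : V} (ha : ∀ v, P.B z v = 0 → P.B a v = 0) : ∃ c : F, a = c • z := by
  by_contra hc
  obtain ⟨b, hb, hb'⟩ := P.exists_dual_vec h.nondeg (Submodule.span F {z}) (u := a) fun h1 => by
    obtain ⟨t, ht⟩ := Submodule.mem_span_singleton.1 h1
    exact hc ⟨t, ht.symm⟩
  rw [h.sym, ha b (by rw [h.sym]; exact hb' z (Submodule.mem_span_singleton_self z))] at hb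
  exact zero_ne_one hb

/-- A unipotent isometry of `z^⊥` fixing `z` is trivial on `z^⊥ / z`. -/
theorem unip {z : V} (hz : P.B z z = 0) (hz0 : z ≠ 0) {n N : Module.End F V} {m : ℕ}
    (hN : ∀ v, N v = n v - v) (hm : N ^ m = 0) (h1 : n z = z) (h2 : ∀ v, P.B z (n v) = P.B z v)
    (h3 : ∀ a b, P.B z a = 0 → P.B z b = 0 → P.B (n a) (n b) = P.B a b) (a : V) (ha : P.B z a = 0) :
    ∃ c : F, n a = a + c • z := by
  by_contra hc
  obtain ⟨k, hk, hk'⟩ : ∃ k : ℕ, (¬ ∃ c : F, (N ^ (k + 1)) a = c • z) ∧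
      ∃ c : F, (N ^ (k + 2)) a = c • z := by
    by_contra hcon
    push Not at hcon
    have : ∀ k : ℕ, ∀ c : F, (N ^ (k + 1)) a ≠ c • z := fun k => by
      induction k with
      | zero => exact fun c h0 => hc ⟨c, by rw [← h0]; simp [hN]⟩
      | succ k ih => exact hcon k ih
    exact this m 0 (by rw [pow_succ', hm]; simp)
  have hp : ∀ k : ℕ, P.B z ((N ^ k) a) = 0 := fun k => by
    induction k with
    | zero => simpa using ha
    | succ k ih => rw [pow_succ', Module.End.mul_apply, hN, P.B_sub_right, h2, sub_self]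
  obtain ⟨c, hc⟩ := hk'
  have hb := hp k
  have hu := hp (k + 1)
  rw [pow_succ', Module.End.mul_apply] at hc
  have e : n ((N ^ k) a) = (N ^ k) a + (N ^ (k + 1)) a := by
    rw [pow_succ', Module.End.mul_apply, hN]; abel
  generalize (N ^ (k + 1)) a = u at hk hc hu e
  generalize (N ^ k) a = b at hb e
  rw [hN, sub_eq_iff_eq_add'] at hc
  have e1 := h3 u b hu hb
  have e2 := h3 b b hb hb
  simp only [e, hc, P.B_add_left, P.B_add_right, P.B_smul_left, hb, hu, h.sym u b] at e1 e2
  have e3 : P.B u u = 0 := by linear_combination e1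
  have e4 : P.B b u = 0 := mul_left_cancel₀ h.h2 (by linear_combination e2 - e3)
  refine hk (h.mem_span_of_perp fun v hv => ?_)
  have hli : LinearIndependent F ![z, u, b] := by
    rw [Fintype.linearIndependent_iff]
    intro t ht
    simp only [Fin.sum_univ_three, Matrix.cons_val] at ht
    have ht' := congrArg n ht
    rw [map_add, map_add, map_smul, map_smul, map_smul, h1, hc, e, map_zero] at ht'
    have t2 : t 2 = 0 := by
      by_contra h0
      exact hk ⟨-(t 1 * c) / t 2, smul_right_injective V h0 (by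
        simp only [smul_smul, mul_div_cancel₀ _ h0]
        linear_combination (norm := module) ht' - ht)⟩
    have t1 : t 1 = 0 := by
      by_contra h0
      exact hk ⟨-t 0 / t 1, smul_right_injective V h0 (by
        simp only [smul_smul, mul_div_cancel₀ _ h0]
        rw [t2] at ht
        linear_combination (norm := module) ht)⟩
    have t0 : t 0 = 0 := by simpa [t1, t2, hz0] using ht
    intro i; fin_cases i <;> assumption
  have hle : Submodule.span F (Set.range ![z, u, b]) ≤ P.perp (Submodule.span F {z}) :=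
    Submodule.span_le.2 (by
      rintro _ ⟨i, rfl⟩
      fin_cases i <;> exact P.mem_perp_span_singleton.2 (by assumption))
  have := Submodule.eq_of_le_of_finrank_le hle (by
    have := P.finrank_perp h.nondeg (Submodule.span F {z})
    rw [finrank_span_eq_card hli, Fintype.card_fin]
    rw [finrank_span_singleton hz0, h.h4] at this
    omega)
  obtain ⟨t, rfl⟩ := (Submodule.mem_span_range_iff_exists_fun F).1
    (this ▸ P.mem_perp_span_singleton.2 hv : v ∈ Submodule.span F (Set.range ![z, u, b]))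
  simp [Fin.sum_univ_three, h.sym u z, hu, e3, h.sym u b, e4]

variable (hX : ∀ g : V ≃ₗ[F] V, P.IsIso g → g ∈ SLV F V → g ∈ X)
include hX

theorem exists_eich {z a : V} (hz : P.B z z = 0) (hza : P.B z a = 0) :
    ∃ g ∈ flagU P X z, P.IsIso g ∧ Eich P z a g := by
  obtain ⟨g, g1, g2, g3⟩ := h.toHermLike.exists_eichler hz hza
  exact ⟨g, ⟨hX g g1 g2, by simp [g3, hz, h.sym a z, hza], fun v hv => ⟨P.B a v, by simp [g3, hv]⟩,
    fun v => by simp [g3, hz, hza]⟩, g1, g3⟩

theorem eich_of_mem {z : V} (hz : P.B z z = 0) (hz0 : z ≠ 0)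
    (hT : ∀ φ : Dual F V, φ z = 0 → HasTv X z φ → φ = 0) {s : V ≃ₗ[F] V} (hs : s ∈ flagU P X z) :
    ∃ a, P.B z a = 0 ∧ Eich P z a s := by
  obtain ⟨f, -, hzf⟩ := h.exists_partner hz hz0
  have ha : P.B z (f - s f) = 0 := by simp [hs.2.2.2]
  obtain ⟨E, hE, -, eE⟩ := h.exists_eich hX hz ha
  have key : ∀ v, ∃ c : F, s v = E v + c • z := fun v => by
    obtain ⟨c, hc⟩ := hs.2.2.1 (v - P.B z v • f) (by simp [hzf])
    obtain ⟨d, hd⟩ := hE.2.2.1 (v - P.B z v • f) (by simp [hzf])
    rw [map_sub, map_smul] at hc hd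
    rw [eE f, hzf] at hd
    exact ⟨c - d - P.B z v * (P.B (f - s f) f - P.N (f - s f)), by
      linear_combination (norm := module) hc - hd⟩
  have h1 := hT (P.B f ∘ₗ ((s : V →ₗ[F] V) - (E : V →ₗ[F] V))) (by simp [hs.2.1, hE.2.1])
    ⟨E⁻¹ * s, X.mul_mem (X.inv_mem hE.1) hs.1, fun v => E.injective (by
      obtain ⟨c, hc⟩ := key v
      simp [apply_inv_apply, hc, hE.2.1, h.sym f z, hzf])⟩
  refine ⟨_, ha, fun v => ?_⟩
  obtain ⟨c, hc⟩ := key v
  have h2 : c = 0 := by simpa [hc, h.sym f z, hzf] using LinearMap.congr_fun h1 v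
  rw [hc, h2, eE]; simp

theorem mem_flagU {z : V} (hz : P.B z z = 0) (hz0 : z ≠ 0)
    (hT : ∀ φ : Dual F V, φ z = 0 → HasTv X z φ → φ = 0) {p : ℕ} [Fact p.Prime] [CharP F p]
    {n : V ≃ₗ[F] V} (hn : n ∈ ptStab X z) {k : ℕ} (hk : n ^ p ^ k = 1)
    (hN : ∀ s ∈ flagU P X z, n * s * n⁻¹ ∈ flagU P X z) : n ∈ flagU P X z := by
  obtain ⟨f, hf, hzf⟩ := h.exists_partner hz hz0
  obtain ⟨hn, t, -, ht⟩ := hn
  have h1 : n z = z := by
    have : ∀ m : ℕ, (n ^ m) z = t ^ m • z := fun m => by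
      induction m with
      | zero => simp
      | succ m ih => rw [pow_succ', LinearEquiv.mul_apply, ih, map_smul, ht, smul_smul, pow_succ]
    have h2 := this (p ^ k)
    rw [hk] at h2
    rw [ht, eq_one_of_pow (smul_left_injective F hz0 (h2.symm.trans (one_smul F z).symm)), one_smul]
  have key : ∀ a, P.B z a = 0 → ∃ a', P.B z a' = 0 ∧ ∀ v,
      (P.B a v - P.N a * P.B z v) • z - P.B z v • n a =
        (P.B a' (n v) - P.N a' * P.B z (n v)) • z - P.B z (n v) • a' := fun a ha => by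
    obtain ⟨E, hE, -, eE⟩ := h.exists_eich hX hz ha
    obtain ⟨a', ha', e'⟩ := h.eich_of_mem hX hz hz0 hT (hN E hE)
    refine ⟨a', ha', fun v => ?_⟩
    have := e' (n v)
    rw [LinearEquiv.mul_apply, LinearEquiv.mul_apply, inv_apply_apply, eE, map_sub, map_add,
      map_smul, map_smul, h1] at this
    linear_combination (norm := module) this
  have h2 : ∀ v, P.B z v = 0 → P.B z (n v) = 0 := by
    intro v hv
    by_contra h0
    obtain ⟨a, ha, hza, hfa, -⟩ := h.exists_ns_pair hz hf hzf (Or.inl rfl) (by simp) (by simp)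
    obtain ⟨a', ha', e⟩ := key a hza
    obtain ⟨c, rfl⟩ : ∃ c : F, a' = c • z := ⟨_, smul_right_injective V h0 (by
      have := e v
      rw [hv] at this
      simp only [smul_smul]
      rw [mul_div_cancel₀ (P.B a' (n v) - P.N a' * P.B z (n v) - P.B a v) h0]
      linear_combination (norm := module) this)⟩
    have h3 := e f
    rw [hzf] at h3
    obtain ⟨d, hd⟩ : ∃ d : F, n a = d • z := ⟨_, by
      rw [smul_smul, ← sub_smul, sub_eq_iff_eq_add', ← sub_eq_iff_eq_add, ← sub_smul, one_smul]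
        at h3
      exact h3.symm⟩
    rw [← h1, ← map_smul, n.injective.eq_iff] at hd
    exact ha (by simp [hd, hz])
  have h3 : ∀ v, P.B z (n v) = P.B z v := by
    have e : ∀ v, P.B z (n v) = P.B z (n f) * P.B z v := fun v => by
      have := h2 (v - P.B z v • f) (by simp [hzf])
      simp only [map_sub, map_smul, smul_eq_mul] at this
      linear_combination this
    have : ∀ m : ℕ, P.B z ((n ^ m) f) = P.B z (n f) ^ m := fun m => by
      induction m with
      | zero => simpa using hzf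
      | succ m ih => rw [pow_succ', LinearEquiv.mul_apply, e, ih, pow_succ']
    have h4 := this (p ^ k)
    rw [hk] at h4
    intro v
    rw [e, eq_one_of_pow (h4.symm.trans hzf), one_mul]
  refine ⟨hn, h1, h.unip hz hz0 (n := n) (N := n - 1) (m := p ^ k) (fun _ => rfl) ?_ h1 h3 fun a b ha hb => ?_, h3⟩
  · have : Nontrivial V := ⟨⟨z, 0, hz0⟩⟩
    have : CharP (Module.End F V) p := charP_of_injective_algebraMap' F p
    rw [sub_pow_char_pow_of_commute _ _ (Commute.one_right _), one_pow, sub_eq_zero]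
    exact (map_pow LinearEquiv.automorphismGroup.toLinearMapMonoidHom n _).symm.trans
      (by rw [hk]; rfl)
  · obtain ⟨a', ha', e⟩ := key a ha
    have e1 := e b
    have e2 := congrArg (P.B (n b)) (e f)
    simp only [h3, hb, hzf, P.B_sub_right, P.B_smul_right, h.sym (n b) z, mul_zero, zero_smul,
      sub_zero] at e1 e2
    rw [LinearEquiv.coe_coe, smul_left_injective F hz0 e1, h.sym, h.sym a']
    linear_combination -e2

theorem sing_map [Finite F] (hT : ∀ z (φ : Dual F V), P.B z z = 0 → z ≠ 0 → φ z = 0 →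
    HasTv X z φ → φ = 0) {g : V ≃ₗ[F] V} (hg : g ∈ X) {z : V} (hz : P.B z z = 0) :
    P.B (g z) (g z) = 0 := by
  by_contra hw
  have hz0 : z ≠ 0 := by rintro rfl; simp at hw
  obtain ⟨p, hp⟩ := CharP.exists F
  have : Fact p.Prime := ⟨CharP.char_is_prime F p⟩
  have : Finite V := Module.finite_of_finite F
  have : Finite (V ≃ₗ[F] V) := Finite.of_injective (fun g : V ≃ₗ[F] V => (g : V → V))
    DFunLike.coe_injective
  obtain ⟨y, hy, hy0, hyy⟩ := h.sing (P.perp (Submodule.span F {g z})) (by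
    have := P.finrank_perp h.nondeg (Submodule.span F {g z})
    rw [finrank_span_singleton (by simpa using hz0), h.h4] at this
    omega)
  replace hy : P.B (g z) y = 0 := P.mem_perp_span_singleton.1 hy
  obtain ⟨f, hfs, hyf, hf⟩ := P.exists_partner h.nondeg (Submodule.span F {g z})
    (h.toHermLike.sing_iff.2 hyy) (fun h0 => by
      obtain ⟨t, rfl⟩ := Submodule.mem_span_singleton.1 h0
      exact hy0 (by simp [show t = 0 by simpa [hw] using hy])) fun w hw => by
      obtain ⟨t, rfl⟩ := Submodule.mem_span_singleton.1 hw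
      simp [h.sym y, hy]
  obtain ⟨a, ha, hya, -, hwa⟩ := h.exists_ns_pair hyy hfs.self_eq (by rw [h.sym, hyf])
    (Or.inr hw) (by rw [h.sym, hy]) (hf _ (Submodule.mem_span_singleton_self _))
  obtain ⟨E, hE, -, eE⟩ := h.exists_eich hX hyy hya
  obtain ⟨k, ⟨-, t, ht0, ht⟩, hk⟩ := exists_conj_mem (S := flagU P X z) (Y := ptStab X z) (p := p)
    (fun s hs => ⟨hs.1, 1, one_ne_zero, by simp [hs.2.1]⟩) (fun s hs => by
      obtain ⟨b, hb, e⟩ := h.eich_of_mem hX hz hz0 (fun φ => hT z φ hz hz0) hs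
      exact h.eich_pow hz hb e p)
    (fun n hn ⟨k, hk⟩ => h.mem_flagU hX hz hz0 (fun φ => hT z φ hz hz0) hn hk)
    (x := g⁻¹ * E * g) ⟨X.mul_mem (X.mul_mem (X.inv_mem hg) hE.1) hg, 1, one_ne_zero, by
      simp [eE (g z), h.sym y, h.sym a, hy, hwa, inv_apply_apply]⟩ (by
      simpa [h.eich_pow hyy hya eE p] using conj_pow (i := p) (a := g⁻¹) (b := E))
  obtain ⟨b, hb, e⟩ := h.eich_of_mem hX hz hz0 (fun φ => hT z φ hz hz0) hk
  have h1 := h.eich_sq hz hb e (k (g⁻¹ f))
  have h2 := h.eich_sq hyy hya eE f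
  simp only [LinearEquiv.mul_apply, inv_apply_apply, apply_inv_apply] at h1
  generalize -P.B b b * P.B z (k (g⁻¹ f)) = c at h1
  rw [← map_smul, ← map_smul, ← map_sub, ← map_sub, ← map_add, ← map_add, h2, h.sym y f, hyf,
    ← div_mul_cancel₀ c ht0, mul_smul (c / t), ← ht, ← map_smul, k.injective.eq_iff] at h1
  replace h1 := congrArg g h1
  rw [apply_inv_apply, map_smul] at h1
  have h3 := congrArg (P.B (g z)) h1
  rw [P.B_smul_right, P.B_smul_right, hy, mul_zero, eq_comm, mul_eq_zero] at h3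
  simp [h3.resolve_right hw, ha, hy0] at h1

omit hX in
theorem mem_simV {g : V ≃ₗ[F] V} (hg : ∀ z, P.B z z = 0 → P.B (g z) (g z) = 0) :
    g ∈ simV fun x y => P.B x y := by
  have h2 := h.h2
  obtain ⟨e, -, he0, he⟩ := h.sing ⊤ (by simp [h.h4])
  obtain ⟨f, hf, hef⟩ := h.exists_partner he he0
  have hfe : P.B f e = 1 := by rw [h.sym, hef]
  have k1 : ∀ a, P.B e a = 0 → P.B f a = 0 → P.B (g a) (g a) = P.B (g e) (g f) * P.B a a ∧
      2 * P.B (g e) (g a) = P.B a a * P.B (g f) (g a) := by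
    intro a h1 h3
    have k : ∀ s : F, s * s = 1 → P.B (g a) (g a) + 2 * s * P.B (g e) (g a) -
        s * P.B a a * P.B (g f) (g a) - P.B a a * P.B (g e) (g f) = 0 := fun s hs => by
      obtain ⟨n, hn⟩ : ∃ n, P.B a a = 2 * n := ⟨_, (mul_div_cancel₀ _ h2).symm⟩
      have := hg (s • a + e - n • f) (by
        simp only [P.B_add_left, P.B_add_right, P.B_sub_left, P.B_sub_right, P.B_smul_left,
          P.B_smul_right, he, hf, hef, hfe, h1, h3, h.sym a e, h.sym a f, RingHom.id_apply]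
        linear_combination P.B a a * hs + hn)
      simp only [map_add g, map_sub g, map_smul g, P.B_add_left, P.B_add_right, P.B_sub_left,
        P.B_sub_right, P.B_smul_left, P.B_smul_right, hg e he, hg f hf, h.sym (g a) (g e),
        h.sym (g a) (g f), h.sym (g f) (g e), RingHom.id_apply] at this
      rw [hn]
      linear_combination this - P.B (g a) (g a) * hs
    exact ⟨mul_left_cancel₀ h2 (by linear_combination k 1 (by simp) + k (-1) (by simp)),
      mul_left_cancel₀ h2 (by linear_combination k 1 (by simp) - k (-1) (by simp))⟩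
  have k2 : ∀ a, P.B e a = 0 → P.B f a = 0 → P.B (g f) (g a) = 0 ∧ P.B (g e) (g a) = 0 := by
    intro a h1 h3
    suffices P.B (g f) (g a) = 0 from
      ⟨this, mul_left_cancel₀ h2 (by rw [(k1 a h1 h3).2, this]; simp)⟩
    by_cases ha : P.B a a = 0
    · have := hg (a + f) (by simp [ha, h3, hf, h.sym a f])
      simp only [map_add g, P.B_add_left, P.B_add_right, hg a ha, hg f hf, h.sym (g a)] at this
      exact mul_left_cancel₀ h2 (by linear_combination this)
    obtain ⟨b, hb, h4, h5, hab⟩ := h.exists_ns_pair he hf hef (Or.inr ha) h1 h3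
    have e1 := (k1 (a + b) (by simp [h1, h4]) (by simp [h3, h5])).2
    have e2 := (k1 (a - b) (by simp [h1, h4]) (by simp [h3, h5])).2
    simp only [map_add g, map_sub g, P.B_add_left, P.B_add_right, P.B_sub_left, P.B_sub_right, hab,
      h.sym b a] at e1 e2
    exact mul_left_cancel₀ (mul_ne_zero h2 hb) (by linear_combination 2 * (k1 a h1 h3).2 - e1 - e2)
  have k3 : ∀ v, P.B (g v) (g v) = P.B (g e) (g f) * P.B v v := fun v => by
    obtain ⟨a, h1, h3, s, t, rfl⟩ : ∃ a, P.B e a = 0 ∧ P.B f a = 0 ∧ ∃ s t : F,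
        v = a + s • e + t • f :=
      ⟨v - P.B f v • e - P.B e v • f, by simp [he, hef], by simp [hf, hfe], P.B f v, P.B e v,
        by abel⟩
    simp only [map_add g, map_smul g, P.B_add_left, P.B_add_right, P.B_smul_left, P.B_smul_right,
      hg e he, hg f hf, h.sym (g a) (g e), h.sym (g a) (g f), h.sym (g f) (g e), k1 a h1 h3,
      k2 a h1 h3, he, hf, hef, hfe, h1, h3, h.sym a e, h.sym a f, RingHom.id_apply]
    ring
  have k4 : ∀ u v, P.B (g u) (g v) = P.B (g e) (g f) * P.B u v := fun u v => by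
    have := k3 (u + v)
    simp only [map_add g, P.B_add_left, P.B_add_right, k3 u, k3 v, h.sym (g v) (g u), h.sym v u]
      at this
    exact mul_left_cancel₀ h2 (by linear_combination this)
  refine ⟨Units.mk0 _ fun h0 => he0 (g.map_eq_zero_iff.1 (h.nondeg _ fun v => ?_)), k4⟩
  rw [← g.apply_symm_apply v, k4, h0, zero_mul]

omit hX in
theorem isMaximalIn [Finite F] : IsMaximalIn (SLV F V) (simV (fun x y => P.B x y) ⊓ SLV F V) := by
  obtain ⟨y, hy, -⟩ := h.exists_ns (a := 0) (b := 0) (c := 0) (Or.inl rfl) (Or.inl rfl)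
    (Or.inl rfl) (by simp) (by simp) (by simp)
  refine h.toHermLike.isMaximalIn_of_tv (by simp [h.h4]) hy fun X hX g hg hg' => ?_
  by_contra hcon
  refine hg' (h.mem_simV fun z => h.sing_map hX (fun z φ hz hz0 hφ ht => ?_) hg)
  by_contra h0
  exact hcon (h.SLV_le_of_sing hX hz hz0 hφ h0 ht)

end O4

section Matrices

variable {F : Type*} [Field F] [Finite F]

theorem sl4_symm {f : (Fin 4 → F) → (Fin 4 → F) → F} (hf : IsSymmetricForm f) (h2 : (2 : F) ≠ 0) :
    IsMaximalIn (specialLinear (Fin 4) F) (similarityGroup f ⊓ specialLinear (Fin 4) F) := by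
  let P := ofHermθ (σ := RingHom.id F) (fun _ => rfl) 2⁻¹ (by simp; field_simp; ring)
    (bilinOf hf.bilinear) ⟨fun u v => hf.symm u v⟩
  have h : O4 P := by
    refine ⟨⟨(bilinOf_nondegenerate hf.bilinear hf.nondegenerate).1, rfl, fun _ => Iff.rfl,
      fun W hW => ?_⟩, h2, by simp⟩
    obtain ⟨z, h0, hz⟩ := OrthE.exists_singular
      ((bilinOf hf.bilinear).toQuadraticMap.comp W.subtype) hW
    exact ⟨z, z.2, fun h => h0 (Subtype.ext h), hz⟩
  rw [specialLinear_eq, similarityGroup_eq, ← Subgroup.comap_inf]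
  exact isMaximalIn_comap _ h.isMaximalIn

theorem sl4_quad {Q : (Fin 4 → F) → F} (hQ : IsNondegenerateQuadraticForm Q) (h2 : (2 : F) ≠ 0) :
    IsMaximalIn (specialLinear (Fin 4) F) (quadSimilarityGroup Q ⊓ specialLinear (Fin 4) F) := by
  convert sl4_symm ⟨hQ.polar_bilinear, QuadraticMap.polar_comm Q, hQ.nondegenerate⟩ h2 using 2
  have hs : ∀ v, QuadraticMap.polar Q v v = 2 * Q v := fun v => by
    rw [QuadraticMap.polar, ← two_smul F v, hQ.smul]; ring
  ext g
  constructor
  · rintro ⟨c, hc⟩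
    exact ⟨c, fun u v => by simp only [QuadraticMap.polar, ← Matrix.mulVec_add, hc]; ring⟩
  · rintro ⟨c, hc⟩
    exact ⟨c, fun v => mul_left_cancel₀ h2 (by rw [← hs, hc, hs]; ring)⟩

end Matrices

end CfsgLib.Low4
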