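import Mathlib
import Cfsg.Agent.Lib.SUMax.Mono3

/-! The stabiliser of a pair of orthogonal non-degenerate planes in `SU₄(q)`, `q ≥ 3`. -/

set_option autoImplicit false

namespace CfsgLib.Low4

open CfsgLib.Forms CfsgLib.ClMax CfsgLib.RootMax CfsgLib.SUMax Module

variable {F : Type*} [Field F] {σ : F →+* F} {V : Type*} [AddCommGroup V] [Module F V]
  {P : PQ σ V} {X : Subgroup (V ≃ₗ[F] V)}

theorem exists_sq_ne_conj (hH : P.IsHerm) : ∃ c : F, σ (c * c) ≠ c * c := by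
  obtain ⟨t, ht⟩ := hH.exists_ne_conj
  by_contra h
  push Not at h
  have h1 := h (t + 1)
  have h2 := h t
  simp only [map_mul, map_add, map_one] at h1 h2
  have h5 : (2 : F) = 0 := by
    refine (mul_eq_zero.1 (show 2 * (σ t - t) = 0 by linear_combination h1 - h2)).resolve_right
      (sub_ne_zero.2 ht)
  exact ht (pow_eq_zero_iff two_ne_zero |>.1 (show (σ t - t) ^ 2 = 0 by
    linear_combination h2 + (t * t - t * σ t) * h5) |> sub_eq_zero.1)

theorem ODec.tf_two2 [FiniteDimensional F V] {D : Fin 2 → Submodule F V} (h : ODec P D 2)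
    (hH : P.IsHerm) (hP : P.Nondeg) (hX : X ≤ P.isom) (hD : ∀ g ∈ SUV P, PermD D g → g ∈ X)
    {c : F} (hc : σ c = c) (hc0 : c ≠ 0) (hc1 : c ≠ 1) {g : V ≃ₗ[F] V} (hg : g ∈ X)
    (hgH : ¬ PermD D g) : TFOn P X ⊤ := by
  have fin : ∀ i, ∀ a ∈ D i, ∀ b ∈ P.perp (D i), P.B a a ≠ 0 → P.B (a + b) (a + b) = 0 →
      TF P X (a + b) → TFOn P X ⊤ := by
    intro i a ha b hb haa hz hT
    have hbb : P.B b b ≠ 0 := fun h0 => haa (by
      rw [P.B_add_left, P.B_add_right, P.B_add_right, hb a ha, P.mem_perp'.1 hb a ha, h0] at hz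
      linear_combination hz)
    have hbW : b ∉ D i := fun h0 => hbb (hb b h0)
    have hW' := P.disjoint_perp_sup_span (h.nd i) hb hbb
    have h1 := (h.tfOn hH hD i).grow hX (h.trOn hH hP hD le_rfl i) ha hb hbb hz hT
    have hr := Submodule.finrank_sup_span_singleton hbW
    rw [h.dim] at hr
    refine (h.grow hH hP hX hD le_rfl hW' hr.ge h1 (trOn_of_tfOn hH hW' (by omega)
      (Or.inr ⟨c, hc, hc0, hc1⟩) h1) le_sup_left).resolve_left fun h2 => hbW ?_
    rw [← h2.1]; exact Submodule.mem_sup_right (Submodule.mem_span_singleton_self b)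
  by_contra hcon
  refine hgH (h.permD_of_dich hH hP hX hD le_rfl (fun i z hz hT => ?_) hg)
  by_contra hi
  push Not at hi
  obtain ⟨j, hij, hj⟩ : ∃ j, i ≠ j ∧ ∀ l, l ≠ j → l = i :=
    (by decide : ∀ i : Fin 2, ∃ j, i ≠ j ∧ ∀ l, l ≠ j → l = i) i
  have hpj : ∀ v ∈ P.perp (D i), v ∈ D j := fun v hv =>
    h.mem_of_perp hP fun l hl => hj l hl ▸ hv
  obtain ⟨u, hu, w, hw, rfl⟩ := exists_decomp hP (h.nd i) z
  have hw0 : w ≠ 0 := fun h0 => hi.2 (by simpa [h0] using hu)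
  have hu0 : u ≠ 0 := fun h0 => hi.1 (by simpa [h0] using hw)
  rw [add_comm] at hz hT
  have hww : P.B w w = 0 := by
    by_contra h0
    exact hcon (fin i w hw u hu h0 hz hT)
  have o1 : ∀ a ∈ D i, ∀ b ∈ D j, P.B a b = 0 := fun a ha b hb => h.orth i j hij hb a ha
  have o2 : ∀ a ∈ D i, ∀ b ∈ D j, P.B b a = 0 := fun a ha b hb =>
    P.B_eq_zero_comm.1 (o1 a ha b hb)
  have huj := hpj u hu
  have huu : P.B u u = 0 := by simpa [hww, o1 w hw u huj, o2 w hw u huj] using hz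
  obtain ⟨y, hy, hys, hyw⟩ := exists_partner_mem (h.nd i) hw hw0 ((hH.sing_iff w).2 hww)
  obtain ⟨x, hx, hxs, hxu⟩ := exists_partner_mem (h.nd j) huj hu0 ((hH.sing_iff u).2 huu)
  have hwy : P.B w y = 1 := by rw [← hH.conj, hyw, map_one]
  have hux : P.B u x = 1 := by rw [← hH.conj, hxu, map_one]
  obtain ⟨s, hs⟩ := exists_sq_ne_conj hH
  have hs0 : s ≠ 0 := by rintro rfl; simp at hs
  have hs1 : σ s + s ≠ 0 := fun h0 => hs (by rw [map_mul]; linear_combination (σ s - s) * h0)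
  obtain ⟨k, hk, dk, ek, fk⟩ := exists_dil hP ((hH.sing_iff w).2 hww) hys hyw hs0
  obtain ⟨m, hm, dm, em, fm⟩ := exists_dil hP ((hH.sing_iff u).2 huu) hxs hxu
    (s := σ s) (by simpa using hs0)
  have hkm : k * m ∈ X := hD _ ⟨hk.comp hm, mem_SLV.2 (by
      rw [SUMax.det_mul, dk, dm, P.σσ]; have : σ s ≠ 0 := by simpa using hs0
      field_simp)⟩ ⟨1, fun l v hv => h.mem_of_fix hP hk (i := i)
        (fun v hv => fk v (hv w hw) (hv y hy)) l _ (h.mem_of_fix hP hm (i := j)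
        (fun v hv => fm v (hv u huj) (hv x hx)) l v hv)⟩
  have t1 := hT.conj hkm (hX hkm)
  rw [LinearEquiv.mul_apply, map_add, em, fm w (o2 w hw u huj) (o2 w hw x hx), map_add, ek,
    map_smul, fk u (o1 w hw u huj) (o1 y hy u huj)] at t1
  obtain ⟨δ, hδ0, hδ⟩ := hH.exists_trace_zero
  have hδ' : σ δ = -δ := by linear_combination hδ
  obtain ⟨a, ha, ea⟩ := h.tfOn hH hD i y hy hys.self_eq δ hδ
  obtain ⟨b, hb, eb⟩ := h.tfOn hH hD j x hx hxs.self_eq δ hδ
  have t2 := (hT.conj ha (hX ha)).conj hb (hX hb)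
  have e2 : b (a (w + u)) = (w + δ • y) + (u + δ • x) := by
    simp only [ea, eb, P.B_add_right, P.B_smul_right, hyw, hxu, o1 y hy u huj, o2 w hw x hx,
      o2 y hy x hx]
    module
  have n2 : P.B (b (a (w + u))) (b (a (w + u))) = 0 := by rw [(hX hb).B_eq, (hX ha).B_eq, hz]
  rw [e2] at t2 n2
  have n1 : P.B (s • w + σ s • u) (s • w + σ s • u) = 0 := by
    simp [hww, huu, o1 w hw u huj, o2 w hw u huj]
  have n3 : P.B (s • w + σ s • u) ((w + δ • y) + (u + δ • x)) = δ * (σ s + s) := by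
    simp only [P.B_add_left, P.B_add_right, P.B_smul_left, P.B_smul_right, hww, huu, hwy, hux,
      o1 w hw u huj, o2 w hw u huj, o1 w hw x hx, o2 y hy u huj, P.σσ]
    ring
  have n4 : P.B ((σ s + s) • (s • w + σ s • u) + (1 : F) • ((w + δ • y) + (u + δ • x)))
      ((σ s + s) • (s • w + σ s • u) + (1 : F) • ((w + δ • y) + (u + δ • x))) = 0 := by
    rw [P.B_add_left, P.B_add_right, P.B_add_right, P.B_smul_left, P.B_smul_left, P.B_smul_left,
      P.B_smul_left, P.B_smul_right, P.B_smul_right, P.B_smul_right, P.B_smul_right, n1, n2,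
      ← hH.conj (s • w + σ s • u), n3]
    simp only [map_add, map_mul, map_one, P.σσ, hδ']
    ring
  have t3 := TF.line hH hX t1 t2 n1 n2 (by rw [n3]; exact mul_ne_zero hδ0 hs1) n4
  have e3 : (σ s + s) • (s • w + σ s • u) + (1 : F) • ((w + δ • y) + (u + δ • x)) =
      (((σ s + s) * s + 1) • w + δ • y) + (((σ s + s) * σ s + 1) • u + δ • x) := by module
  rw [e3] at t3 n4
  refine hcon (fin i _ ((D i).add_mem ((D i).smul_mem _ hw) ((D i).smul_mem _ hy)) _
    (h.orth i j hij ((D j).add_mem ((D j).smul_mem _ huj) ((D j).smul_mem _ hx))) ?_ n4 t3)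
  simp only [P.B_add_left, P.B_add_right, P.B_smul_left, P.B_smul_right, hww, hwy, hyw,
    hys.self_eq]
  simp only [map_add, map_mul, map_one, P.σσ, hδ']
  intro h0
  refine hs ((mul_left_cancel₀ hδ0 ?_))
  rw [map_mul]
  linear_combination h0

theorem su4_two_planes [Fintype F] {q : ℕ} (hF : Fintype.card F = q ^ 2) (hq : 3 ≤ q)
    (D : Fin 2 → Submodule F (Fin 4 → F))
    (hD : Cfsg.Geo.IsNondegenerateMDecomposition (Cfsg.hermForm 4 F q) 2 D) :
    Cfsg.Geo.IsMaximalIn (Cfsg.GU 4 F q ⊓ Cfsg.Geo.specialLinear (Fin 4) F)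
      (Cfsg.Geo.decompositionStabilizer D ⊓ (Cfsg.GU 4 F q ⊓ Cfsg.Geo.specialLinear (Fin 4) F)) := by
  obtain ⟨c, hc, hc0, hc1⟩ := exists_fixed_ne_zero_one hF (by omega)
  exact isMaximalIn_su_dec hF le_rfl D hD fun hO X hX hM g hg hg' =>
    ODec.tf_two2 hO (uPQ_isHerm hF 4) (uPQ_nondeg hF 4) (fun g hg => (hX hg).1) hM hc hc0 hc1 hg hg'

end CfsgLib.Low4
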