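import Mathlib
import Cfsg.Agent.Lib.SUMax.Mono3

/-! The stabiliser of a pair of complementary totally isotropic planes in `SU₄(q)`, `q ≥ 4`. -/

set_option autoImplicit false

namespace CfsgLib.Low4

open CfsgLib.Forms CfsgLib.ClMax CfsgLib.RootMax CfsgLib.SUMax Module

variable {F : Type*} [Field F] {σ : F →+* F} {V : Type*} [AddCommGroup V] [Module F V]
  [FiniteDimensional F V] {P : PQ σ V} {X : Subgroup (V ≃ₗ[F] V)}

/-- An overgroup of the stabiliser of two complementary totally isotropic planes. -/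
structure L4 (P : PQ σ V) (X : Subgroup (V ≃ₗ[F] V)) (D E : Submodule F V) : Prop where
  hH : P.IsHerm
  hP : P.Nondeg
  hX : X ≤ P.isom
  lag : LagP P D E
  d1 : finrank F D = 2
  d2 : finrank F E = 2
  hS : ∀ g ∈ SUV P, (∀ v ∈ D, g v ∈ D) → (∀ v ∈ E, g v ∈ E) → g ∈ X
  sq : ∃ s, σ s = s ∧ s ≠ 0 ∧ s * s ≠ 1

namespace L4

variable {D E : Submodule F V} (h : L4 P X D E)
include h

omit [FiniteDimensional F V] in
theorem symm : L4 P X E D :=
  ⟨h.hH, h.hP, h.hX, h.lag.symm, h.d2, h.d1, fun g hg h1 h2 => h.hS g hg h2 h1, h.sq⟩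

theorem rtDE : RtDE P X D E := fun a ha b hb hab => by
  obtain ⟨k, hk, e⟩ := exists_rt_SUV h.hH (c := 0) (h.lag.isoL a ha a ha) hab
    (by simp [h.lag.isoR b hb b hb])
  refine ⟨k, h.hS k hk (fun v hv => ?_) fun v hv => ?_, fun v => by rw [e, rt_herm h.hH]⟩
  · rw [e, h.lag.isoL a ha v hv, zero_smul, sub_zero]
    exact D.add_mem hv (D.smul_mem _ ha)
  · rw [e, h.lag.isoR b hb v hv, zero_mul, sub_zero, zero_smul, add_zero]
    exact E.sub_mem hv (E.smul_mem _ hb)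

theorem move {x y : V} (hx : x ∈ D) (hy : y ∈ D) (hx0 : x ≠ 0) (h1 : y ∉ Submodule.span F {x}) :
    ∃ g ∈ X, g x = y := by
  have h2 : x ∉ Submodule.span F {y - x} := by
    intro h2
    obtain ⟨c, hc⟩ := Submodule.mem_span_singleton.1 h2
    have hc0 : c ≠ 0 := by rintro rfl; exact hx0 (by simpa using hc.symm)
    refine h1 (Submodule.mem_span_singleton.2 ⟨c⁻¹ + 1, ?_⟩)
    rw [add_smul, one_smul]
    nth_rewrite 1 [← hc]
    rw [smul_smul, inv_mul_cancel₀ hc0, one_smul, sub_add_cancel]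
  obtain ⟨b, hb, hb1, hb2⟩ := h.lag.exists_dual h.hP
    ((Submodule.span_singleton_le_iff_mem _ _).2 (D.sub_mem hy hx)) hx h2
  obtain ⟨g, hg, e⟩ := h.rtDE (y - x) (D.sub_mem hy hx) b hb
    (P.B_eq_zero_comm.1 (hb2 _ (Submodule.mem_span_singleton_self _)))
  refine ⟨g, hg, ?_⟩
  rw [e, rt_herm h.hH, hb1, h.lag.isoL _ (D.sub_mem hy hx) x hx, mul_zero, sub_zero, one_smul,
    zero_smul, sub_zero, add_sub_cancel]

theorem tf_of_tv {x : V} (hx : x ∈ D) (hx0 : x ≠ 0) {d : F} (hd : d + σ d = 0) (hd0 : d ≠ 0)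
    (ht : Tv P X x d) : TF P X x := by
  intro c hc
  by_cases hc0 : c = 0
  · rw [hc0]; exact tv_zero x
  obtain ⟨μ, hμ⟩ := h.hH.norm_surj (c / d) (by
    have : σ d = -d := by linear_combination hd
    have : σ c = -c := by linear_combination hc
    simp [*])
  have hμ0 : μ ≠ 0 := by rintro rfl; exact div_ne_zero hc0 hd0 (by simpa using hμ.symm)
  obtain ⟨y, hy, -, hyx⟩ := exists_orth_not_mem P D (Submodule.span F {x}) ![]
    (by rw [finrank_span_singleton hx0, h.d1]; omega)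
  have hy0 : y ≠ 0 := by rintro rfl; simp at hyx
  obtain ⟨g, hg, e⟩ := h.move hx hy hx0 hyx
  obtain ⟨k, hk, e'⟩ := h.move hy (D.smul_mem μ hx) hy0 fun h1 => hyx (by
    obtain ⟨t, ht⟩ := Submodule.mem_span_singleton.1 h1
    have ht0 : t ≠ 0 := by rintro rfl; exact smul_ne_zero hμ0 hx0 (by simpa using ht.symm)
    exact Submodule.mem_span_singleton.2 ⟨t⁻¹ * μ, by
      rw [mul_smul, ← ht, smul_smul, inv_mul_cancel₀ ht0, one_smul]⟩)
  have := (ht.conj hg (h.hX hg)).conj hk (h.hX hk)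
  rw [e, e', tv_smul, hμ, div_mul_cancel₀ _ hd0] at this
  exact this

theorem two_zero {x a : V} (hx : x ∈ D) (hx0 : x ≠ 0) (ha : a ∈ E) (hxa : P.B x a = 0)
    (hT : ¬ TF P X x) {α δ : F} (hα : α + σ α = 0) {g : V ≃ₗ[F] V} (hg : g ∈ X)
    (e : ∀ v, g v = v + (α * P.B x v) • x + (δ * P.B a v) • a) : α = 0 := by
  obtain ⟨s, hs, hs0, hs1⟩ := h.sq
  have hxx := h.lag.isoL x hx x hx
  have haa := h.lag.isoR a ha a ha
  have hax := P.B_eq_zero_comm.1 hxa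
  obtain ⟨f, hf, hxf⟩ := h.lag.exists_one h.hP hx hx0
  have hfx : P.B f x = 1 := by rw [← h.hH.conj, hxf, map_one]
  have hxs := (h.hH.sing_iff x).2 hxx
  have hfs := (h.hH.sing_iff f).2 (h.lag.isoR f hf f hf)
  have hi := P.dil_isIso hxs hfs hfx hs0
  have ek : ∀ v, hi.toEquiv h.hP v = P.dil x f s v := fun v => rfl
  have hk : hi.toEquiv h.hP ∈ X := h.hS _ ⟨hi, mem_SLV.2 ((P.det_dil hfs hfx s).trans
    (by rw [hs, mul_inv_cancel₀ hs0]))⟩ (fun v hv => by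
      rw [ek, P.dil_apply, h.lag.isoL x hx v hv]; simpa using D.add_mem hv (D.smul_mem _ hx))
    fun v hv => by
      rw [ek, P.dil_apply, h.lag.isoR f hf v hv]; simpa using E.add_mem hv (E.smul_mem _ hf)
  have e1 : hi.toEquiv h.hP x = s • x := by rw [ek, P.dil_apply, hfx, hxx]; module
  have e2 : hi.toEquiv h.hP a = a := by rw [ek, P.dil_apply, hxa, h.lag.isoR f hf a ha]; module
  have hi' : P.IsIso (hi.toEquiv h.hP) := hi
  generalize hi.toEquiv h.hP = k at hk e1 e2 hi'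
  by_contra h0
  refine hT (h.tf_of_tv hx hx0 (d := (s * s - 1) * α) ?_ (mul_ne_zero (sub_ne_zero.2 hs1) h0)
    ⟨k * g * k⁻¹ * g⁻¹, X.mul_mem (X.mul_mem (X.mul_mem hk hg) (X.inv_mem hk)) (X.inv_mem hg),
      fun v => ?_⟩)
  · rw [map_mul, map_sub, map_mul, hs, map_one]; linear_combination (s * s - 1) * hα
  obtain ⟨v, rfl⟩ := g.surjective v
  obtain ⟨v, rfl⟩ := k.surjective v
  have b1 : P.B x (k v) = s⁻¹ * P.B x v := by
    rw [← hi'.B_eq x v, e1, P.B_smul_left, hs, inv_mul_cancel_left₀ hs0]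
  have b2 : P.B a (k v) = P.B a v := by rw [← hi'.B_eq a v, e2]
  rw [LinearEquiv.mul_apply, LinearEquiv.mul_apply, LinearEquiv.mul_apply, inv_apply_apply,
    inv_apply_apply]
  simp only [e, map_add, map_smul, e1, e2, b1, b2, hxx, hxa, smul_eq_mul]
  match_scalars <;> field_simp <;> ring

theorem key (hT : ∀ x, x ≠ 0 → x ∈ D ∨ x ∈ E → ¬ TF P X x) {x a : V} (hx : x ∈ D) (hx0 : x ≠ 0)
    (ha : a ∈ E) (ha0 : a ≠ 0) (hxa : P.B x a = 0) {α β γ δ : F}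
    (hR : ∀ t : F, Rt P X (α • x + β • a) (t • (γ • x + δ • a)) 0) : α * γ = 0 ∧ β * δ = 0 := by
  have hxx := h.lag.isoL x hx x hx
  have haa := h.lag.isoR a ha a ha
  have hax := P.B_eq_zero_comm.1 hxa
  have k1 : ∀ t : F, σ t * σ γ * α - σ α * t * γ = 0 ∧ σ t * σ δ * β - σ β * t * δ = 0 := by
    intro t
    obtain ⟨g, hg, e⟩ := hR t
    obtain ⟨k, hk, e'⟩ := h.rtDE x hx ((σ t * σ γ * β - σ α * t * δ) • a) (E.smul_mem _ ha)
      (by simp [hxa])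
    have e1 : ∀ v, (g * k) v = v + ((σ t * σ γ * α - σ α * t * γ) * P.B x v) • x +
        ((σ t * σ δ * β - σ β * t * δ) * P.B a v) • a := fun v => by
      simp only [LinearEquiv.mul_apply, e, e', rt_herm h.hH, P.B_add_left, P.B_add_right,
        P.B_sub_right, P.B_smul_left, P.B_smul_right, hxx, haa, hxa, hax]
      simp only [map_sub, map_mul, P.σσ]
      module
    exact ⟨h.two_zero hx hx0 ha hxa (hT x hx0 (Or.inl hx)) (by simp [P.σσ]; ring) (X.mul_mem hg hk)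
      e1, h.symm.two_zero ha ha0 hx hax (hT a ha0 (Or.inr ha)) (by simp [P.σσ]; ring)
      (X.mul_mem hg hk) fun v => (e1 v).trans (add_right_comm _ _ _)⟩
  obtain ⟨t, ht⟩ := h.hH.exists_ne_conj
  have ht' := sub_ne_zero.2 ht
  have k2 := k1 1
  rw [map_one] at k2
  have k3 : σ γ * α = 0 := (mul_eq_zero.1 (show (σ t - t) * (σ γ * α) = 0 by
    linear_combination (k1 t).1 - t * k2.1)).resolve_left ht'
  have k4 : σ δ * β = 0 := (mul_eq_zero.1 (show (σ t - t) * (σ δ * β) = 0 by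
    linear_combination (k1 t).2 - t * k2.2)).resolve_left ht'
  simpa [or_comm] using And.intro k3 k4

theorem mem_span {x a b : V} (hx : x ∈ D) (hx0 : x ≠ 0) (ha : a ∈ E) (ha0 : a ≠ 0)
    (hxa : P.B x a = 0) (hb : b ∈ E) (hxb : P.B x b = 0) : ∃ t : F, b = t • a := by
  obtain ⟨f, hf, hxf⟩ := h.lag.exists_ne h.hP hx hx0
  have h1 : finrank F ↥(E ⊓ LinearMap.ker (P.B x)) < finrank F E :=
    Submodule.finrank_lt_finrank_of_lt (lt_of_le_of_ne inf_le_left fun h0 =>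
      hxf (show f ∈ E ⊓ LinearMap.ker (P.B x) from h0.symm ▸ hf).2)
  have h2 := Submodule.eq_of_le_of_finrank_le ((Submodule.span_singleton_le_iff_mem a
    (E ⊓ LinearMap.ker (P.B x))).2 ⟨ha, hxa⟩)
    (by rw [finrank_span_singleton ha0]; have := h.d2; omega)
  obtain ⟨t, ht⟩ := Submodule.mem_span_singleton.1 (h2 ▸ ⟨hb, hxb⟩ : b ∈ Submodule.span F {a})
  exact ⟨t, ht.symm⟩

theorem mem_pair {x a y : V} (hx : x ∈ D) (hx0 : x ≠ 0) (ha : a ∈ E) (ha0 : a ≠ 0)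
    (hxa : P.B x a = 0) (hxy : P.B y x = 0) (hay : P.B y a = 0) : ∃ α β : F, y = α • x + β • a := by
  obtain ⟨u, hu, w, hw, rfl⟩ := h.lag.sup y
  rw [P.B_add_left, h.lag.isoL u hu x hx, zero_add] at hxy
  rw [P.B_add_left, h.lag.isoR w hw a ha, add_zero] at hay
  obtain ⟨β, rfl⟩ := h.mem_span hx hx0 ha ha0 hxa hw (P.B_eq_zero_comm.1 hxy)
  obtain ⟨α, rfl⟩ := h.symm.mem_span ha ha0 hx hx0 (P.B_eq_zero_comm.1 hxa) hu
    (P.B_eq_zero_comm.1 hay)
  exact ⟨α, β, rfl⟩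

omit [FiniteDimensional F V] in
theorem meet {y b : V} (hyb : P.B y b = 0) (hy : P.B y y = 0) (hb : P.B b b = 0) :
    ∃ u w : F, (u ≠ 0 ∨ w ≠ 0) ∧ ∃ x ∈ D, ∃ a ∈ E, P.B x a = 0 ∧ u • y + w • b = x + a := by
  obtain ⟨y₁, hy₁, y₂, hy₂, rfl⟩ := h.lag.sup y
  obtain ⟨b₁, hb₁, b₂, hb₂, rfl⟩ := h.lag.sup b
  by_cases h0 : P.B y₁ y₂ = 0
  · exact ⟨1, 0, Or.inl one_ne_zero, y₁, hy₁, y₂, hy₂, h0, by simp⟩
  simp only [P.B_add_left, P.B_add_right, h.lag.isoL _ hy₁ _ hy₁, h.lag.isoL _ hy₁ _ hb₁,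
    h.lag.isoL _ hb₁ _ hb₁, h.lag.isoR _ hy₂ _ hy₂, h.lag.isoR _ hy₂ _ hb₂, h.lag.isoR _ hb₂ _ hb₂,
    ← h.hH.conj y₁ y₂, ← h.hH.conj b₁ b₂, ← h.hH.conj b₁ y₂] at hyb hy hb
  have e1 : σ (P.B y₁ y₂) = -P.B y₁ y₂ := by linear_combination hy
  have e2 : σ (P.B b₁ b₂) = -P.B b₁ b₂ := by linear_combination hb
  have e3 : σ (P.B b₁ y₂) = -P.B y₁ b₂ := by linear_combination hyb
  have e4 : σ (P.B y₁ b₂) = -P.B b₁ y₂ := by rw [← neg_neg (P.B y₁ b₂), ← e3, map_neg, P.σσ]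
  obtain ⟨μ, hμ⟩ := h.hH.norm_surj (P.B b₁ y₂ * P.B y₁ b₂ / P.B y₁ y₂ ^ 2 - P.B b₁ b₂ / P.B y₁ y₂)
    (by simp only [map_sub, map_div₀, map_mul, map_pow, e1, e2, e3, e4]; field_simp)
  refine ⟨μ - P.B y₁ b₂ / P.B y₁ y₂, 1, Or.inr one_ne_zero, _,
    D.add_mem (D.smul_mem (μ - P.B y₁ b₂ / P.B y₁ y₂) hy₁) hb₁, _,
    E.add_mem (E.smul_mem (μ - P.B y₁ b₂ / P.B y₁ y₂) hy₂) hb₂, ?_, by module⟩
  simp only [P.B_add_left, P.B_add_right, P.B_smul_left, P.B_smul_right]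
  simp only [map_sub, map_div₀, e1, e4]
  field_simp at hμ ⊢
  linear_combination hμ

theorem special (hT : ∀ x, x ≠ 0 → x ∈ D ∨ x ∈ E → ¬ TF P X x) {y b : V} (hyb : P.B y b = 0)
    (hy : P.B y y = 0) (hb : P.B b b = 0) (hi : ∀ u w : F, u • y + w • b = 0 → u = 0 ∧ w = 0)
    (hR : ∀ t : F, Rt P X y (t • b) 0) : y ∈ D ∨ y ∈ E := by
  obtain ⟨u, w, huw, x', hx', a', ha', hxa', ep⟩ := h.meet hyb hy hb
  have hby := P.B_eq_zero_comm.1 hyb
  have hp0 : u • y + w • b ≠ 0 := fun h0 => by have := hi u w h0; tauto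
  obtain ⟨x, hx, hx0, a, ha, ha0, hxa, α, β, ep⟩ : ∃ x ∈ D, x ≠ 0 ∧ ∃ a ∈ E, a ≠ 0 ∧ P.B x a = 0 ∧
      ∃ α β : F, u • y + w • b = α • x + β • a := by
    by_cases h1 : x' = 0
    · obtain ⟨x, hx, h2, h3⟩ := exists_orth_ne_zero P D ![a'] (by rw [h.d1]; omega)
      exact ⟨x, hx, h3, a', ha', fun h0 => hp0 (by simp [ep, h0, h1]), P.B_eq_zero_comm.1 (h2 0),
        0, 1, by simp [ep, h1]⟩
    by_cases h2 : a' = 0
    · obtain ⟨a, ha, h3, h4⟩ := exists_orth_ne_zero P E ![x'] (by rw [h.d2]; omega)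
      exact ⟨x', hx', h1, a, ha, h4, h3 0, 1, 0, by simp [ep, h2]⟩
    · exact ⟨x', hx', h1, a', ha', h2, hxa', 1, 1, by simp [ep]⟩
  have hxx := h.lag.isoL x hx x hx
  have haa := h.lag.isoR a ha a ha
  have hax := P.B_eq_zero_comm.1 hxa
  obtain ⟨t, ht0, ht⟩ : ∃ t : F, t ≠ 0 ∧ ∀ v, P.B (u • y + w • b) v = 0 →
      ∃ c : F, (σ t * P.B b v) • y - (t * P.B y v) • b = c • (u • y + w • b) := by
    by_cases hu : u = 0
    · have hw : w ≠ 0 := by tauto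
      refine ⟨1, one_ne_zero, fun v hv => ⟨-P.B y v / w, ?_⟩⟩
      have : P.B b v = 0 := by simpa [hu, hw] using hv
      rw [this, hu]; match_scalars <;> field_simp <;> ring
    by_cases hw : w = 0
    · refine ⟨1, one_ne_zero, fun v hv => ⟨P.B b v / u, ?_⟩⟩
      have : P.B y v = 0 := by simpa [hu, hw] using hv
      rw [this, hw, map_one]; match_scalars <;> field_simp <;> ring
    refine ⟨w * σ u, by simp [hu, hw], fun v hv => ⟨σ w * P.B b v, ?_⟩⟩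
    rw [P.B_add_left, P.B_smul_left, P.B_smul_left] at hv
    rw [map_mul, P.σσ]
    match_scalars
    · ring
    · linear_combination (-w) * hv
  obtain ⟨c, hc⟩ := ht x (by simp [ep, hxx, hax])
  obtain ⟨d, hd⟩ := ht a (by simp [ep, hxa, haa])
  have k1 : ∀ s : F, σ s = s → (1 + s * c * α) * (s * d * α) = 0 ∧
      (s * c * β) * (1 + s * d * β) = 0 := by
    intro s hs
    obtain ⟨g, hg, e⟩ := hR (s * t)
    have e1 : ∀ v (c : F), (σ t * P.B b v) • y - (t * P.B y v) • b = c • (u • y + w • b) →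
        g v = v + (s * c) • (α • x + β • a) := fun v c hc => by
      rw [e, rt_herm h.hH, mul_smul s c, ← ep, ← hc, P.B_smul_left, map_mul, hs]; module
    refine h.key hT hx hx0 ha ha0 hxa fun r => ?_
    have := (h.rtDE x hx _ (E.smul_mem r ha) (by simp [hxa])).conj hg (h.hX hg)
    rw [map_smul, e1 x c hc, e1 a d hd] at this
    convert this using 1
    · module
    · module
  obtain ⟨s, hs, hs0, hs1⟩ := h.sq
  have hs2 : s - 1 ≠ 0 := fun h0 => hs1 (by linear_combination (s + 1) * h0)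
  have k2 := k1 1 (map_one σ)
  have k3 := k1 s hs
  have k4 : d * α = 0 := mul_left_cancel₀ (mul_ne_zero hs0 hs2) (by
    linear_combination s * s * k2.1 - k3.1)
  have k5 : c * β = 0 := mul_left_cancel₀ (mul_ne_zero hs0 hs2) (by
    linear_combination s * s * k2.2 - k3.2)
  have k6 : α * c + β * d = 0 := by
    have h1 : P.B y (α • x + β • a) = 0 := by rw [← ep]; simp [hy, hyb]
    have h2 : P.B b (α • x + β • a) = 0 := by rw [← ep]; simp [hb, hby]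
    rw [P.B_add_right, P.B_smul_right, P.B_smul_right] at h1 h2
    refine (smul_eq_zero.1 ?_).resolve_right hp0
    rw [add_smul, mul_smul, mul_smul, ← hc, ← hd]
    match_scalars
    · linear_combination σ t * h2
    · linear_combination (-t) * h1
  have hαβ : ¬ (α = 0 ∧ β = 0) := fun h0 => hp0 (by simp [ep, h0.1, h0.2])
  have hc0 : c = 0 := by
    by_contra h0
    have h1 : β = 0 := (mul_eq_zero.1 k5).resolve_left h0
    exact hαβ ⟨by simpa [h1, h0] using k6, h1⟩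
  have hd0 : d = 0 := by
    by_contra h0
    have h1 : α = 0 := (mul_eq_zero.1 k4).resolve_left h0
    exact hαβ ⟨h1, by simpa [h1, h0] using k6⟩
  have k7 : ∀ v, (σ t * P.B b v) • y - (t * P.B y v) • b = (0 : F) • (u • y + w • b) →
      P.B b v = 0 ∧ P.B y v = 0 := fun v hv => by
    simpa [ht0] using hi (σ t * P.B b v) (-(t * P.B y v)) (by rw [neg_smul, ← sub_eq_add_neg, hv,
      zero_smul])
  obtain ⟨α', β', rfl⟩ := h.mem_pair hx hx0 ha ha0 hxa (k7 x (hc0 ▸ hc)).2 (k7 a (hd0 ▸ hd)).2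
  obtain ⟨γ, δ, rfl⟩ := h.mem_pair hx hx0 ha ha0 hxa (k7 x (hc0 ▸ hc)).1 (k7 a (hd0 ▸ hd)).1
  obtain ⟨k8, k9⟩ := h.key hT hx hx0 ha ha0 hxa hR
  by_cases h1 : β' = 0
  · left; simpa [h1] using D.smul_mem α' hx
  by_cases h2 : α' = 0
  · right; simpa [h2] using E.smul_mem β' ha
  exact absurd (hi 0 1 (by simp [(mul_eq_zero.1 k8).resolve_left h2,
    (mul_eq_zero.1 k9).resolve_left h1])).2 one_ne_zero

theorem map_le (hT : ∀ x, x ≠ 0 → x ∈ D ∨ x ∈ E → ¬ TF P X x) {g : V ≃ₗ[F] V} (hg : g ∈ X) :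
    (∀ v ∈ D, g v ∈ D) ∨ ∀ v ∈ D, g v ∈ E := by
  have h1 : ∀ x ∈ D, g x ∈ D ∨ g x ∈ E := by
    intro x hx
    by_cases hx0 : x = 0
    · simp [hx0]
    obtain ⟨a, ha, h3, h4⟩ := exists_orth_ne_zero P E ![x] (by rw [h.d2]; omega)
    refine h.special hT (b := g a) (((h.hX hg).B_eq _ _).trans (h3 0))
      (((h.hX hg).B_eq _ _).trans (h.lag.isoL x hx x hx))
      (((h.hX hg).B_eq _ _).trans (h.lag.isoR a ha a ha)) (fun u w h0 => ?_) fun t => ?_
    · rw [← map_smul, ← map_smul, ← map_add, g.map_eq_zero_iff] at h0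
      have h5 : u • x = 0 := h.lag.eq_zero h.hP (D.smul_mem u hx) fun b hb => by
        rw [eq_neg_of_add_eq_zero_left h0]; simp [h.lag.isoR a ha b hb]
      rw [h5, zero_add] at h0
      exact ⟨by simpa [hx0] using h5, by simpa [h4] using h0⟩
    · rw [← map_smul]
      exact (h.rtDE x hx _ (E.smul_mem t ha) (by simp [show P.B x a = 0 from h3 0])).conj hg
        (h.hX hg)
  by_contra hcon
  push Not at hcon
  obtain ⟨⟨u, hu, hu'⟩, w, hw, hw'⟩ := hcon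
  rcases h1 (u + w) (D.add_mem hu hw) with h2 | h2 <;> rw [map_add] at h2
  · exact hu' (by simpa using D.sub_mem h2 ((h1 w hw).resolve_right hw'))
  · exact hw' (by simpa using E.sub_mem h2 ((h1 u hu).resolve_left hu'))

theorem tf_all (hH' : ∀ g ∈ SUV P, (∀ v ∈ D, g v ∈ E) → (∀ v ∈ E, g v ∈ D) → g ∈ X)
    {g : V ≃ₗ[F] V} (hg : g ∈ X) (hgH : ¬ ((∀ v ∈ D, g v ∈ D) ∧ (∀ v ∈ E, g v ∈ E) ∨
      (∀ v ∈ D, g v ∈ E) ∧ (∀ v ∈ E, g v ∈ D))) (x : V) (hx : P.B x x = 0) : TF P X x := by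
  have hno : ∀ {D E : Submodule F V}, L4 P X D E → (∀ v ∈ D, g v ∈ D) → ¬ ∀ v ∈ E, g v ∈ D := by
    intro D E h h1 h2
    obtain ⟨a, ha, -, ha0⟩ := exists_orth_ne_zero P E ![] (by rw [h.d2]; omega)
    obtain ⟨u, hu, w, hw, e⟩ := h.lag.sup (g⁻¹ a)
    have : a ∈ D := by
      rw [← apply_inv_apply g a, ← e, map_add]; exact D.add_mem (h1 u hu) (h2 w hw)
    exact ha0 (h.lag.eq_zero h.hP this (h.lag.isoR a ha))
  obtain ⟨y, hy0, hy, hF⟩ : ∃ y, y ≠ 0 ∧ (y ∈ D ∨ y ∈ E) ∧ TF P X y := by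
    by_contra hcon
    push Not at hcon
    rcases h.map_le hcon hg with h1 | h1 <;>
      rcases h.symm.map_le (fun x h0 hx => hcon x h0 hx.symm) hg with h2 | h2
    · exact hgH (Or.inl ⟨h1, h2⟩)
    · exact hno h h1 h2
    · exact hno h.symm h2 h1
    · exact hgH (Or.inr ⟨h1, h2⟩)
  obtain ⟨w, hw, hw1, hw2, -⟩ := SUMax.exists_swap h.hH D E h.lag.isoL h.lag.isoR
    (fun w hw hw0 => h.lag.exists_ne h.hP hw hw0) (fun w hw hw0 => h.lag.symm.exists_ne h.hP hw hw0)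
  have hwM := hH' w hw hw1 hw2
  obtain ⟨z, hz0, hz, hzF⟩ : ∃ z, z ≠ 0 ∧ z ∈ D ∧ TF P X z := by
    rcases hy with hy | hy
    · exact ⟨y, hy0, hy, hF⟩
    · exact ⟨w y, by simpa using hy0, hw2 y hy, hF.conj hwM hw.1⟩
  exact h.lag.tf_all h.hH h.hX h.rtDE (h.lag.tf_left h.hH h.hP h.hX h.rtDE hz hz0 hzF)
    (h.lag.symm.tf_left h.hH h.hP h.hX (h.rtDE.symm h.hH) (hw1 z hz) (by simpa using hz0)
      (hzF.conj hwM hw.1)) x hx

end L4

theorem exists_fixed_sq [Fintype F] {q : ℕ} (hF : Fintype.card F = q ^ 2) (hq : 4 ≤ q) :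
    ∃ s, Unitary.conj hF s = s ∧ s ≠ 0 ∧ s * s ≠ 1 := by
  classical
  by_contra h
  push Not at h
  have h1 := Unitary.card_fixed hF
  have h3 : Nat.card {x : F // x ^ q = x} ≤ Nat.card ({0, 1, -1} : Finset F) :=
    Nat.card_le_card_of_injective (fun x => ⟨x.1, by
      by_cases h0 : x.1 = 0
      · simp [h0]
      · have := mul_self_eq_one_iff.1 (h x.1 x.2 h0)
        simp [this]⟩) fun x y hxy => Subtype.ext (congrArg Subtype.val hxy :)
  rw [Nat.card_eq_finsetCard] at h3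
  have := Finset.card_le_three (a := (0 : F)) (b := 1) (c := -1)
  omega

theorem su4_lag [Fintype F] {q : ℕ} (hF : Fintype.card F = q ^ 2) (hq : 4 ≤ q) (D : Fin 2 → Submodule F (Fin 4 → F))
    (hD : Cfsg.Geo.IsMDecomposition 2 D)
    (hts : ∀ i, Cfsg.Geo.IsTotallySingularFor (Cfsg.hermForm 4 F q) (D i)) :
    Cfsg.Geo.IsMaximalIn (Cfsg.GU 4 F q ⊓ Cfsg.Geo.specialLinear (Fin 4) F)
      (Cfsg.Geo.decompositionStabilizer D ⊓ (Cfsg.GU 4 F q ⊓ Cfsg.Geo.specialLinear (Fin 4) F)) := by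
  have hH := uPQ_isHerm hF 4
  have hP := uPQ_nondeg hF 4
  have hL : LagP (uPQ hF 4) (D 0) (D 1) :=
    ⟨fun u hu v hv => hts 0 v hv u hu, fun u hu v hv => hts 1 v hv u hu, fun v => by
      have : D 0 ⊔ D 1 = ⊤ := by
        rw [← hD.iSup_eq_top]
        refine le_antisymm (sup_le (le_iSup D 0) (le_iSup D 1)) (iSup_le fun i => ?_)
        fin_cases i
        · exact le_sup_left
        · exact le_sup_right
      exact Submodule.mem_sup.1 (this ▸ Submodule.mem_top)⟩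
  have hd : ∀ i j, finrank F (D i) = finrank F (D j) := fun i j => by
    rw [hD.finrank_eq, hD.finrank_eq]
  refine isMaximalIn_su hF le_rfl _ (fun g => (∀ v ∈ D 0, g v ∈ D 0) ∧ (∀ v ∈ D 1, g v ∈ D 1) ∨
      (∀ v ∈ D 0, g v ∈ D 1) ∧ (∀ v ∈ D 1, g v ∈ D 0)) (fun g _ => ⟨?_, ?_⟩) ?_
    fun M hM hH' g hg hgH => L4.tf_all ⟨hH, hP, hM.trans inf_le_left, hL, hD.finrank_eq _,
      hD.finrank_eq _, fun g hg h1 h2 => hH' g hg (Or.inl ⟨h1, h2⟩), exists_fixed_sq hF hq⟩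
      (fun g hg h1 h2 => hH' g hg (Or.inr ⟨h1, h2⟩)) hg hgH
  · rintro ⟨τ, hτ⟩
    have h1 : ∀ i, ∀ v ∈ D i, toEquiv g v ∈ D (τ i) := fun i v hv => hτ i ▸ ⟨v, hv, rfl⟩
    have h0 := h1 0
    have h1 := h1 1
    have hne : τ 0 ≠ τ 1 := τ.injective.ne (by decide)
    generalize τ 0 = i, τ 1 = j at h0 h1 hne
    fin_cases i <;> fin_cases j
    · exact absurd rfl hne
    · exact Or.inl ⟨h0, h1⟩
    · exact Or.inr ⟨h0, h1⟩
    · exact absurd rfl hne
  · rintro (⟨h0, h1⟩ | ⟨h0, h1⟩)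
    · refine ⟨1, fun i => ?_⟩
      rw [← toEquiv_coe]
      fin_cases i
      · exact map_eq_of_mem _ rfl h0
      · exact map_eq_of_mem _ rfl h1
    · refine ⟨Equiv.swap 0 1, fun i => ?_⟩
      rw [← toEquiv_coe]
      fin_cases i
      · exact map_eq_of_mem _ (hd _ _) h0
      · exact map_eq_of_mem _ (hd _ _) h1
  · obtain ⟨a, ha, -, ha0⟩ := exists_orth_ne_zero (uPQ hF 4) (D 0) ![]
      (by rw [hD.finrank_eq]; omega)
    obtain ⟨b, hb, hab⟩ := hL.exists_one hP ha ha0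
    obtain ⟨d, hd0, hd⟩ := hH.exists_trace_zero
    have haa := hL.isoL a ha a ha
    have hba : (uPQ hF 4).B b a = 1 := by rw [← hH.conj, hab, map_one]
    obtain ⟨g, hg, e⟩ := exists_tv_SUV hH haa hd
    refine ⟨g, hg, ?_⟩
    rintro (⟨-, h1⟩ | ⟨h0, -⟩)
    · have := hL.isoR b hb _ (h1 b hb)
      rw [e, PQ.B_add_right, PQ.B_smul_right, hL.isoR b hb b hb, hab, hba] at this
      exact hd0 (by simpa using this)
    · have := hL.isoR b hb _ (h0 a ha)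
      rw [e, haa, mul_zero, zero_smul, add_zero, hba] at this
      exact one_ne_zero this

end CfsgLib.Low4
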