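import Mathlib
import Cfsg.Agent.Lib.SUMax.SubMat
import Cfsg.Agent.Lib.Low4.SLO4b
import Cfsg.Agent.Lib.Low4.SUDec2

/-! Overgroups of a real `SO₄` in `SU₄`: generalities, and the case of a transvection. -/

set_option autoImplicit false

namespace CfsgLib.Low4

open CfsgLib.Forms CfsgLib.ClMax CfsgLib.RootMax CfsgLib.SUMax Module

variable {F : Type*} [Field F] {σ : F →+* F} {V : Type*} [AddCommGroup V] [Module F V]
  {K : Type*} [Field K] [Algebra K F] {V₀ : Type*} [AddCommGroup V₀] [Module K V₀]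
  [FiniteDimensional K V₀] [FiniteDimensional F V]

theorem exists_lift {σ₀ : K →+* K} {P : PQ σ V} {P₀ : PQ σ₀ V₀} {j : V₀ →ₛₗ[algebraMap K F] V}
    {M : Subgroup (V ≃ₗ[F] V)} (h : URat P P₀ j M) {k₀ : V₀ ≃ₗ[K] V₀} (hk : P₀.IsIso k₀)
    (hd : k₀ ∈ SLV K V₀) : ∃ k ∈ SUV P, ∀ v, k (j v) = j (k₀ v) := by
  let b := Module.finBasis K V₀
  have hv : ∀ v, j v = ∑ i, algebraMap K F (b.repr v i) • j (b i) := fun v => by
    conv_lhs => rw [← b.sum_repr v]
    simp only [map_sum, map_smulₛₗ]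
  let e := Basis.mk (h.linearIndependent b.linearIndependent) (by
    rw [← h.span, Submodule.span_le]
    rintro _ ⟨v, rfl⟩
    rw [hv]
    exact Submodule.sum_mem _ fun i _ => Submodule.smul_mem _ _ (Submodule.subset_span ⟨i, rfl⟩))
  have he : ∀ i, j (b i) = e i := fun i => by simp [e]
  let k : V →ₗ[F] V := e.constr F fun i => j (k₀ (b i))
  have h1 : ∀ v, k (j v) = j (k₀ v) := fun v => by
    conv_rhs => rw [← b.sum_repr v]
    rw [hv]
    simp only [map_sum, map_smul, map_smulₛₗ, he, k, Basis.constr_basis, RingHom.id_apply]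
  have h2 : P.IsIso k := (h.hH.isIso_iff k).2 fun x y => by
    rw [← e.sum_repr x, ← e.sum_repr y]
    simp only [map_sum, map_smulₛₗ, LinearMap.sum_apply, LinearMap.smul_apply, ← he, h1, h.hj,
      hk.B_eq, RingHom.id_apply]
  refine ⟨h2.toEquiv h.hP, ⟨h2, mem_SLV.2 ?_⟩, h1⟩
  have h3 : LinearMap.toMatrix e e k =
      (algebraMap K F).mapMatrix (LinearMap.toMatrix b b (k₀ : V₀ →ₗ[K] V₀)) := by
    ext i l
    rw [LinearMap.toMatrix_apply, ← he, h1, hv]
    simp [he, Finsupp.single_apply, Algebra.smul_def, LinearMap.toMatrix_apply]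
  change LinearMap.det k = 1
  rw [← LinearMap.det_toMatrix e, h3, ← RingHom.map_det, LinearMap.det_toMatrix, mem_SLV.1 hd,
    map_one]

/-- An overgroup `M` of the real special orthogonal group in a four-dimensional unitary group. -/
structure OU (P : PQ σ V) (P₀ : PQ (RingHom.id K) V₀) (j : V₀ →ₛₗ[algebraMap K F] V)
    (M : Subgroup (V ≃ₗ[F] V)) (θ : F) : Prop extends URat P P₀ j M where
  o4 : O4 P₀
  h4 : finrank F V = 4
  fix : ∀ a, σ a = a → ∃ k, algebraMap K F k = a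
  lift : ∀ k₀ : V₀ ≃ₗ[K] V₀, P₀.IsIso k₀ → k₀ ∈ SLV K V₀ → ∃ k ∈ M, ∀ v, k (j v) = j (k₀ v)
  big : ∃ t : F, t ≠ 0 ∧ σ t ^ 3 ≠ t
  θ0 : θ ≠ 0
  σθ : σ θ = -θ

namespace OU

variable {P : PQ σ V} {P₀ : PQ (RingHom.id K) V₀} {j : V₀ →ₛₗ[algebraMap K F] V}
  {M : Subgroup (V ≃ₗ[F] V)} {θ : F} (h : OU P P₀ j M θ)
include h

omit [FiniteDimensional K V₀] [FiniteDimensional F V]

theorem h2 : (2 : F) ≠ 0 := by
  rw [← map_ofNat (algebraMap K F) 2]; simpa only [ne_eq, map_eq_zero] using h.o4.h2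

theorem σa (a : K) : σ (algebraMap K F a) = algebraMap K F a := h.hσ a

theorem decF (a : F) : ∃ s t : K, a = algebraMap K F s + θ * algebraMap K F t :=
  fixed_decomp P.σσ h.fix (fun h0 => mul_ne_zero h.h2 h.θ0 (by linear_combination h.σθ - h0)) a

theorem dec (v : V) : ∃ a b, v = j a + θ • j b := span_decomp h.decF h.span v

theorem im_zero {s t : K} (e : σ (algebraMap K F s + θ * algebraMap K F t) =
    algebraMap K F s + θ * algebraMap K F t) : t = 0 := by
  rw [map_add, map_mul, h.σa, h.σa, h.σθ] at e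
  simpa [h.h2, h.θ0] using (show 2 * θ * algebraMap K F t = 0 by linear_combination -e)

theorem sep {s t : K} (e : algebraMap K F s + θ * algebraMap K F t = 0) : s = 0 ∧ t = 0 := by
  have := h.im_zero (by rw [e, map_zero])
  exact ⟨by simpa [this] using e, this⟩

theorem B_dec (v a b : V₀) : P.B (j v) (j a + θ • j b) =
    algebraMap K F (P₀.B v a) + θ * algebraMap K F (P₀.B v b) := by
  rw [P.B_add_right, P.B_smul_right, h.hj, h.hj]

theorem sepB {v a b : V₀} (e : P.B (j v) (j a + θ • j b) = 0) : P₀.B v a = 0 ∧ P₀.B v b = 0 :=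
  h.sep (by rw [← h.B_dec, e])

variable [FiniteDimensional K V₀] [FiniteDimensional F V]

omit [FiniteDimensional F V] in
theorem exists_conj : ∃ φ : V →+ V, (∀ (c : F) v, φ (c • v) = σ c • φ v) ∧ ∀ v, φ (j v) = j v := by
  obtain ⟨φ, hφ⟩ := h.toURat.exists_galois (AlgEquiv.ofBijective { σ with commutes' := h.σa }
    (Function.Involutive.bijective P.σσ))
  exact ⟨φ, fun c v => map_smulₛₗ φ c v, hφ⟩

theorem tfOn_top {x : V₀} (hx : P₀.B x x = 0) (hx0 : x ≠ 0) {d : F} (hd0 : d ≠ 0)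
    (ht : Tv P M (j x) d) : TFOn P M ⊤ := by
  have o := h.o4
  have h2 := h.h2
  obtain ⟨f, hf, hxf⟩ := o.exists_partner hx hx0
  have hfx : P₀.B f x = 1 := by rw [o.sym, hxf]
  have hd : σ d = -d := by
    have := param_of_rt h.hH h.hP h.hM (h.ne_zero hx0) (h.orth hx) (by simp) (tv_iff_rt.1 ht)
    simp only [map_neg, map_zero] at this
    linear_combination -this
  have h3 : ∀ s : K, Tv P M (j x) (algebraMap K F s ^ 2 * d) := fun s => by
    by_cases hs : s = 0
    · simpa [hs] using tv_zero (j x)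
    obtain ⟨k, k1, k2, k3, -⟩ := exists_dil o.nondeg (o.toHermLike.sing_iff.2 hx)
      (o.toHermLike.sing_iff.2 hf) hfx hs
    obtain ⟨g, hg, e⟩ := h.lift k k1 (mem_SLV.2 (by simp [k2, hs]))
    have := ht.conj hg (h.hM hg)
    rwa [e, k3, map_smulₛₗ, tv_smul, h.σa, ← sq] at this
  have hx1 : TF P M (j x) := fun c hc => by
    obtain ⟨r, hr⟩ := h.fix (c / d) (by
      rw [map_div₀, hd, show σ c = -c by linear_combination hc, neg_div_neg_eq])
    refine ((h3 ((r + 1) / 2)).sub (h.orth hx) (h3 ((r - 1) / 2))).congr rfl ?_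
    simp only [map_div₀, map_add, map_sub, map_one, map_ofNat, hr]
    field_simp; ring
  obtain ⟨a, ha, hxa, hfa, -⟩ := o.exists_ns_pair hx hf hxf (Or.inl rfl) (by simp) (by simp)
  obtain ⟨b, hb, hxb, hfb, hab⟩ := o.exists_ns_pair hx hf hxf (Or.inr ha) hxa hfa
  have hf1 : TF P M (j f) := by
    have h5 : P₀.B (x - f) (x - f) = -2 := by simp [hx, hf, hxf, hfx]; ring
    obtain ⟨k, k1, k2, k3⟩ := o.exists_refl2 (a := x - f) (by rw [h5]; simpa using o.h2) ha
    obtain ⟨g, hg, e⟩ := h.lift k k1 k2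
    have := hx1.conj hg (h.hM hg)
    rwa [e, k3 x (by rw [o.sym, hxa]), h5, show x + (-2 / -2 * P₀.B (x - f) x) • (x - f) = f by
      simp [hx, hfx, o.h2]] at this
  have step : ∀ W : Submodule F V, j x ∈ W → j f ∈ W → 2 ≤ finrank F W → Disjoint W (P.perp W) →
      TFOn P M W → ∀ a, P₀.B a a ≠ 0 → P₀.B x a = 0 → P₀.B f a = 0 → j a ∈ P.perp W →
      finrank F ↥(W ⊔ Submodule.span F {j a}) = finrank F W + 1 ∧
      Disjoint (W ⊔ Submodule.span F {j a}) (P.perp (W ⊔ Submodule.span F {j a})) ∧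
      TFOn P M (W ⊔ Submodule.span F {j a}) := by
    intro W h1 h3 h4 h5 h6 a ha hxa hfa h7
    have haa : P.B (j a) (j a) ≠ 0 := fun h0 => ha (h.orth_iff.1 h0)
    obtain ⟨n, hn⟩ : ∃ n, P₀.B a a = 2 * n := ⟨_, (mul_div_cancel₀ _ o.h2).symm⟩
    have hy : P₀.B (f - n • x + a) (f - n • x + a) = 0 := by
      simp [hx, hf, hxf, hfx, hxa, hfa, o.sym a, hn]; ring
    obtain ⟨g, hg, e⟩ := h.move hx hf hy (by simp [hxf]) (by simp [hx, hxf, hxa])
    have h8 := hf1.conj hg (h.hM hg)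
    have h9 := h.orth hy
    rw [e] at h8
    rw [map_add] at h8 h9
    exact ⟨Submodule.finrank_sup_span_singleton fun h0 => haa (h7 _ h0),
      P.disjoint_perp_sup_span h5 h7 haa, h6.grow h.hM (trOn_of_tfOn h.hH h5 h4 (Or.inr ⟨-1, by simp,
        by simp, fun h0 => h2 (by linear_combination -h0)⟩) h6)
        (by rw [map_sub, map_smulₛₗ]; exact W.sub_mem h3 (W.smul_mem _ h1)) h7 haa h9 h8⟩
  have key : ∀ s t : F, P.B (j f) (s • j x + t • j f) = s ∧ P.B (j x) (s • j x + t • j f) = t :=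
    fun s t => by simp [h.hj, hx, hf, hxf, hfx]
  have m1 : j x ∈ Submodule.span F {j x, j f} := Submodule.subset_span (by simp)
  have m2 : j f ∈ Submodule.span F {j x, j f} := Submodule.subset_span (by simp)
  have r2 : finrank F (Submodule.span F {j x, j f}) = 2 := by
    have := finrank_span_eq_card (R := F) (b := ![j x, j f]) (LinearIndependent.pair_iff.2
      fun s t e => ⟨by simpa [e] using (key s t).1.symm, by simpa [e] using (key s t).2.symm⟩)
    rwa [Matrix.range_cons_cons_empty] at this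
  obtain ⟨r3, d3, t3⟩ := step _ m1 m2 r2.ge (P.disjoint_perp_iff.2 fun v hv hv' => by
      obtain ⟨s, t, rfl⟩ := Submodule.mem_span_pair.1 hv
      simp [(key s t).1.symm.trans (P.B_eq_zero_comm.1 (hv' _ m2)),
        (key s t).2.symm.trans (P.B_eq_zero_comm.1 (hv' _ m1))]) (fun v hv hvv => by
      obtain ⟨s, t, rfl⟩ := Submodule.mem_span_pair.1 hv
      exact TF.line h.hH h.hM hx1 hf1 (h.orth hx) (h.orth hf) (by simp [h.hj, hxf]) hvv)
    a ha hxa hfa (P.mem_perp_span.2 (by simp [h.orth hxa, h.orth hfa]))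
  obtain ⟨r4, -, t4⟩ := step _ (Submodule.mem_sup_left m1) (Submodule.mem_sup_left m2) (by omega)
    d3 t3 b hb hxb hfb (by
      rw [← Submodule.span_union]
      exact P.mem_perp_span.2 (by simp [h.orth hxb, h.orth hfb, h.orth hab]))
  rwa [Submodule.eq_top_of_finrank_eq (r4.trans (by rw [r3, r2, h.h4]))] at t4

omit [FiniteDimensional F V] in
theorem witt {p q p' q' : V₀} (hD : P₀.B p p * P₀.B q q - P₀.B p q ^ 2 ≠ 0)
    (h1 : P₀.B p' p' = P₀.B p p) (h2 : P₀.B p' q' = P₀.B p q) (h3 : P₀.B q' q' = P₀.B q q) :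
    ∃ k ∈ M, k (j p) = j p' ∧ k (j q) = j q' := by
  have o := h.o4
  have gram : ∀ {p q : V₀}, P₀.B p p * P₀.B q q - P₀.B p q ^ 2 ≠ 0 → ∀ s t : K,
      P₀.B (s • p + t • q) p = 0 → P₀.B (s • p + t • q) q = 0 → s = 0 ∧ t = 0 := by
    intro p q hD s t e1 e2
    simp only [P₀.B_add_left, P₀.B_smul_left, o.sym q p, RingHom.id_apply] at e1 e2
    exact ⟨mul_left_cancel₀ hD (by linear_combination P₀.B q q * e1 - P₀.B p q * e2),
      mul_left_cancel₀ hD (by linear_combination P₀.B p p * e2 - P₀.B p q * e1)⟩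
  have hD' : P₀.B p' p' * P₀.B q' q' - P₀.B p' q' ^ 2 ≠ 0 := by rwa [h1, h2, h3]
  obtain ⟨k, hk, e⟩ := P₀.witt_family o.nondeg ![p, q] ![p', q']
    (LinearIndependent.pair_iff.2 fun s t e => gram hD s t (by simp [e]) (by simp [e]))
    (LinearIndependent.pair_iff.2 fun s t e => gram hD' s t (by simp [e]) (by simp [e]))
    (fun i l => by fin_cases i <;> fin_cases l <;> simp [h1, h2, h3, o.sym q p, o.sym q' p'])
    (fun i => (o.mem_Λ _).2 (by
      have a1 := o.toHermLike.two_N p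
      have a2 := o.toHermLike.two_N p'
      have a3 := o.toHermLike.two_N q
      have a4 := o.toHermLike.two_N q'
      fin_cases i <;> simp
      · linear_combination a2 - a1 + h1
      · linear_combination a4 - a3 + h3))
  have e0 : k p = p' := e 0
  have e1 : k q = q' := e 1
  rcases mul_self_eq_one_iff.1 (Unitary.conj_det_mul_det o.nondeg hk) with hd | hd
  · obtain ⟨g, hg, eg⟩ := h.lift k hk (mem_SLV.2 hd)
    exact ⟨g, hg, by rw [eg, e0], by rw [eg, e1]⟩
  have m1 : p' ∈ Submodule.span K {p', q'} := Submodule.subset_span (by simp)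
  have m2 : q' ∈ Submodule.span K {p', q'} := Submodule.subset_span (by simp)
  obtain ⟨d, hd1, hd2⟩ := o.exists_ns_perp (W := Submodule.span K {p', q'})
    (P₀.disjoint_perp_iff.2 fun v hv hv' => by
      obtain ⟨s, t, rfl⟩ := Submodule.mem_span_pair.1 hv
      obtain ⟨rfl, rfl⟩ := gram hD' s t (hv' _ m1) (hv' _ m2)
      simp) ((RootMax.finrank_span_pair_le p' q').trans_lt (by norm_num))
  obtain ⟨r, r1, r2, r3⟩ := o.exists_refl hd2
  obtain ⟨g, hg, eg⟩ := h.lift (r * k) (r1.comp hk) (mem_SLV.2 (by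
    rw [SUMax.det_mul, r2, show LinearMap.det (k : V₀ →ₗ[K] V₀) = -1 from hd]; simp))
  exact ⟨g, hg, by simp [eg, e0, r3, o.sym d, hd1 _ m1], by simp [eg, e1, r3, o.sym d, hd1 _ m2]⟩

end OU

end CfsgLib.Low4
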