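import Mathlib
import Cfsg.Agent.Lib.Low4.SUO4a
import Cfsg.Agent.Lib.Low4.SULag

/-! Subfield subgroups of orthogonal type are maximal in `SU₄(q)`, `q ≥ 5` odd. -/

set_option autoImplicit false

namespace CfsgLib.Low4

open CfsgLib.Forms CfsgLib.ClMax CfsgLib.RootMax CfsgLib.SUMax Module

variable {F : Type*} [Field F] {σ : F →+* F} {V : Type*} [AddCommGroup V] [Module F V]
  {K : Type*} [Field K] [Algebra K F] {V₀ : Type*} [AddCommGroup V₀] [Module K V₀]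
  [FiniteDimensional K V₀] [FiniteDimensional F V]

namespace OU

variable {P : PQ σ V} {P₀ : PQ (RingHom.id K) V₀} {j : V₀ →ₛₗ[algebraMap K F] V}
  {M : Subgroup (V ≃ₗ[F] V)} {θ : F} (h : OU P P₀ j M θ)
include h

omit [FiniteDimensional F V]

theorem dich {x : V₀} {u : V} (hu : P.B (j x) u = 0) :
    (∀ s : F, ∃ a, P₀.B x a = 0 ∧ P.B (j a) u = s) ∨
      ∃ (c μ : F) (y : V₀), P₀.B x y = 0 ∧ u = c • j y + μ • j x := by
  obtain ⟨p, q, rfl⟩ := h.dec u
  obtain ⟨hp, hq⟩ := h.sepB hu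
  by_cases h1 : q ∈ Submodule.span K {x}
  · obtain ⟨t, rfl⟩ := Submodule.mem_span_singleton.1 h1
    exact Or.inr ⟨1, θ * algebraMap K F t, p, hp, by rw [map_smulₛₗ]; module⟩
  by_cases h2 : p ∈ Submodule.span K {x, q}
  · obtain ⟨s, t, rfl⟩ := Submodule.mem_span_pair.1 h2
    exact Or.inr ⟨algebraMap K F t + θ, algebraMap K F s, q, hq, by
      rw [map_add, map_smulₛₗ, map_smulₛₗ]; module⟩
  obtain ⟨a, a1, a2⟩ := P₀.exists_dual_vec h.hP₀ _ h2
  obtain ⟨b, b1, b2⟩ := P₀.exists_dual_vec h.hP₀ _ h1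
  have a3 := a2 x (Submodule.subset_span (by simp))
  have a4 := a2 q (Submodule.subset_span (by simp))
  have b3 := b2 x (Submodule.mem_span_singleton_self x)
  refine Or.inl fun s => ?_
  obtain ⟨s, t, rfl⟩ := h.decF s
  exact ⟨s • a + t • (b - P₀.B b p • a), by simp [h.o4.sym x, a3, b3], by
    rw [h.B_dec]; simp [a1, a4, b1]⟩

variable (hT : ∀ x, P₀.B x x = 0 → x ≠ 0 → ∀ d, Tv P M (j x) d → d = 0)
include hT

theorem rat {x : V₀} (hx : P₀.B x x = 0) (hx0 : x ≠ 0) {b : V} (hb : P.B (j x) b = 0) {c : F}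
    (hR : Rt P M (j x) b c) : ∃ (a : V₀) (μ : F), P₀.B x a = 0 ∧ b = j a + μ • j x := by
  obtain ⟨p, q, rfl⟩ := h.dec b
  obtain ⟨t, rfl⟩ := h.o4.mem_span_of_perp (z := x) (a := q) fun a ha => by
    obtain ⟨c', hc'⟩ := h.exists_rt hx ha
    have := hT x hx hx0 _ (rt_comm h.hH hR hc' (h.orth hx) hb (h.orth ha))
    rw [← h.hH.conj (j a), h.B_dec, sub_eq_zero] at this
    rw [h.o4.sym, h.im_zero this.symm]
  exact ⟨p, θ * algebraMap K F t, (h.sepB hb).1, by rw [map_smulₛₗ, smul_smul]⟩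

theorem norm {x y : V₀} (hx : P₀.B x x = 0) (hy : P₀.B y y = 0) (hy0 : y ≠ 0) {n : V ≃ₗ[F] V}
    (hn : n ∈ M) {t : F} (e : n (j x) = t • j y) {a : V₀} (ha : P₀.B x a = 0) :
    ∃ (b : V₀) (μ : F), P₀.B y b = 0 ∧ σ t • n (j a) = j b + μ • j y := by
  obtain ⟨c, hc⟩ := h.exists_rt hx ha
  have h1 := hc.conj hn (h.hM hn)
  rw [e, rt_smul h.hH] at h1
  exact h.rat hT hy hy0 (by rw [P.B_smul_right, ← P.B_smul_left, ← e, (h.hM hn).B_eq, h.orth ha]) h1

theorem line {x x' y : V₀} (hx : P₀.B x x = 0) (hx' : P₀.B x' x' = 0) (hx0 : x ≠ 0) (hx0' : x' ≠ 0)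
    (hxy : P₀.B x y = 0) {g : V ≃ₗ[F] V} (hg : g ∈ M) {c μ : F}
    (e : g (j x') = c • j y + μ • j x) : ∃ (c : F) (y : V₀), g (j x') = c • j y := by
  by_cases hc : c = 0
  · exact ⟨μ, x, by simp [e, hc]⟩
  have hyx : P₀.B y x = 0 := by rw [h.o4.sym, hxy]
  have hw := (h.hM hg).B_eq (j x') (j x')
  have hy : P₀.B y y = 0 := h.orth_iff.1 (by
    simpa [e, h.orth hx, h.orth hx', h.orth hxy, h.orth hyx, hc] using hw)
  obtain ⟨m, rfl⟩ : ∃ m, μ = c * m := ⟨_, (mul_div_cancel₀ _ hc).symm⟩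
  by_cases hm : σ m = m
  · obtain ⟨k, rfl⟩ := h.fix m hm
    exact ⟨c, y + k • x, by rw [e, map_add, map_smulₛₗ]; module⟩
  obtain ⟨p, q, hz⟩ := h.dec (g⁻¹ (j x))
  by_cases h1 : ∀ a, P₀.B x' a = 0 → P.B (j a) (g⁻¹ (j x)) = 0
  · rw [hz] at h1
    obtain ⟨s, rfl⟩ := h.o4.mem_span_of_perp (z := x') (a := p) fun a ha => by
      rw [h.o4.sym, (h.sepB (h1 a ha)).1]
    obtain ⟨t, rfl⟩ := h.o4.mem_span_of_perp (z := x') (a := q) fun a ha => by
      rw [h.o4.sym, (h.sepB (h1 a ha)).2]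
    replace hz := congrArg g hz
    rw [apply_inv_apply, map_smulₛₗ, map_smulₛₗ, smul_smul, ← add_smul, map_smul] at hz
    generalize algebraMap K F s + θ * algebraMap K F t = l at hz
    have hl : l ≠ 0 := by rintro rfl; exact h.ne_zero hx0 (by simpa using hz)
    exact ⟨l⁻¹, x, by rw [hz, smul_smul, inv_mul_cancel₀ hl, one_smul]⟩
  exfalso
  push Not at h1
  obtain ⟨a, ha, hγ⟩ := h1
  rw [← (h.hM hg).B_eq, apply_inv_apply] at hγ
  obtain ⟨k, hk, ek⟩ := h.rt_zero hx hxy hy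
  obtain ⟨b, ν, hb, eb⟩ := h.norm hT hx' hx' hx0' (M.mul_mem (M.mul_mem (M.inv_mem hg) hk) hg)
    (t := 1) (by
      rw [LinearEquiv.mul_apply, LinearEquiv.mul_apply, ek, rt_of_orth, inv_apply_apply, one_smul] <;>
      simp [e, h.orth hx, h.orth hy, h.orth hxy, h.orth hyx]) ha
  replace eb := congrArg (fun v => P.B (g (j a)) (g v)) eb
  have h2 := (h.hM hg).B_eq (j x') (j a)
  simp only [map_one, one_smul, LinearEquiv.mul_apply, apply_inv_apply, (h.hM hg).B_eq, ek,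
    rt_herm h.hH, P.B_add_right, P.B_sub_right, P.B_smul_right, h.hj,
    P₀.B_eq_zero_comm.1 ha, map_zero] at eb
  rw [e, h.orth ha, P.B_add_left, P.B_smul_left, P.B_smul_left, map_mul, mul_assoc, ← mul_add,
    mul_eq_zero, map_eq_zero] at h2
  replace h2 := eq_neg_of_add_eq_zero_left (h2.resolve_left hc)
  rw [← h.hH.conj (j y), h2, ← h.hH.conj (g (j a)) (j x)] at eb
  generalize P.B (g (j a)) (j x) = γ at eb hγ
  have h3 := congrArg σ eb
  simp only [map_add, map_sub, map_mul, map_neg, P.σσ, h.σa, map_zero] at eb h3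
  exact mul_ne_zero (mul_ne_zero h.h2 (sub_ne_zero.2 hm)) (mul_ne_zero hγ ((map_ne_zero σ).2 hγ))
    (by linear_combination h3 - eb)

theorem torus {x x' : V₀} (hx : P₀.B x x = 0) (hx' : P₀.B x' x' = 0) (hx0 : x ≠ 0)
    {g : V ≃ₗ[F] V} (hg : g ∈ M) (hw : P.B (j x) (g (j x')) = 0)
    (h1 : ∀ s : F, ∃ a, P₀.B x a = 0 ∧ P.B (j a) (g (j x')) = s)
    (h2 : ∀ s : F, ∃ a, P₀.B x' a = 0 ∧ P.B (j a) (g⁻¹ (j x)) = s) : False := by
  have hww : P.B (g (j x')) (g (j x')) = 0 := by rw [(h.hM hg).B_eq, h.orth hx']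
  have U : ∀ s : F, ∃ u ∈ M, u (j x) = j x ∧ u (g (j x')) = g (j x') + s • j x := fun s => by
    obtain ⟨a, ha, e⟩ := h1 s
    obtain ⟨c, u, hu, eu⟩ := h.exists_rt hx ha
    exact ⟨u, hu, by rw [eu, rt_of_orth _ _ (h.orth hx) (h.orth (P₀.B_eq_zero_comm.1 ha))],
      by rw [eu, rt_of_orth_left _ _ _ hw, e]⟩
  have U' : ∀ s : F, ∃ u ∈ M, u (g (j x')) = g (j x') ∧ u (j x) = j x + s • g (j x') := fun s => by
    obtain ⟨a, ha, e⟩ := h2 s
    obtain ⟨c, hc⟩ := h.exists_rt hx' ha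
    obtain ⟨u, hu, eu⟩ := hc.conj hg (h.hM hg)
    exact ⟨u, hu, by rw [eu, rt_of_orth _ _ hww (by
      rw [(h.hM hg).B_eq, h.orth (P₀.B_eq_zero_comm.1 ha)])], by
      rw [eu, rt_of_orth_left _ _ _ (P.B_eq_zero_comm.1 hw), ← e, ← (h.hM hg).B_eq (j a),
        apply_inv_apply]⟩
  obtain ⟨p, q, e⟩ := h.dec (g (j x'))
  rw [e] at hw h1 hww U U'
  have W : ∀ s : F, s ≠ 0 → ∃ n ∈ M, n (j p + θ • j q) = s • j x ∧
      n (j x) = -s⁻¹ • (j p + θ • j q) := fun s hs => by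
    obtain ⟨u, hu, u1, u2⟩ := U s
    obtain ⟨v, hv, v1, v2⟩ := U' (-s⁻¹)
    generalize j p + θ • j q = w at u2 v1 v2
    refine ⟨u * v * u, M.mul_mem (M.mul_mem hu hv) hu, ?_, ?_⟩ <;>
      simp only [LinearEquiv.mul_apply, u1, u2, v1, v2, map_add, map_smul] <;>
      match_scalars <;> field_simp <;> ring
  obtain ⟨t, ht0, ht⟩ := h.big
  obtain ⟨n, hn, n1, n2⟩ : ∃ n ∈ M, n (j x) = t • j x ∧
      n (j p + θ • j q) = t⁻¹ • (j p + θ • j q) := by
    obtain ⟨u, hu, u1, u2⟩ := W t ht0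
    obtain ⟨v, hv, v1, v2⟩ := W (-1) (by simp)
    refine ⟨u * v, M.mul_mem hu hv, ?_, ?_⟩
    · rw [LinearEquiv.mul_apply, v2, map_smul, u1]; simp
    · rw [LinearEquiv.mul_apply, v1, map_smul, u2]; simp
  obtain ⟨hp, hq⟩ := h.sepB hw
  obtain ⟨a, μ, -, ea⟩ := h.norm hT hx hx hx0 hn n1 hp
  obtain ⟨b, ν, -, eb⟩ := h.norm hT hx hx hx0 hn n1 hq
  obtain ⟨φ, φ1, φ2⟩ := h.exists_conj
  have e1 : j a + θ • j b + (μ + θ * ν) • j x = (σ t * t⁻¹) • (j p + θ • j q) := by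
    rw [mul_smul, ← n2, map_add, map_smul]
    linear_combination (norm := module) -ea - θ • eb
  have e2 := congrArg φ e1
  simp only [map_add φ, φ1, φ2, h.σθ] at e2
  have e3 : σ t • n (j p - θ • j q) = σ (σ t * t⁻¹) • (j p - θ • j q) +
      (μ - θ * ν - σ (μ + θ * ν)) • j x := by
    rw [map_sub, map_smul]
    linear_combination (norm := module) ea - θ • eb + e2
  have e4 := congrArg (P.B (n (j p + θ • j q))) e3
  rw [P.B_smul_right, (h.hM hn).B_eq, n2, P.B_smul_left, P.B_add_right, P.B_smul_right,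
    P.B_smul_right _ _ (j x), P.B_eq_zero_comm.1 hw] at e4
  have hσt : σ t ≠ 0 := by simpa using ht0
  have e5 : P.B (j p + θ • j q) (j p - θ • j q) = 0 := by
    by_contra h0
    simp only [map_mul, map_inv₀, P.σσ] at e4
    field_simp at e4
    exact ht (mul_right_cancel₀ h0 (by linear_combination e4))
  rw [P.B_sub_right] at e5
  rw [P.B_add_right] at hww
  obtain ⟨pp, pq⟩ := h.sepB (v := p) (a := p) (b := q) (P.B_eq_zero_comm.1
    (mul_left_cancel₀ h.h2 (by linear_combination e5 + hww)))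
  obtain ⟨-, qq⟩ := h.sepB (v := q) (a := p) (b := q) (P.B_eq_zero_comm.1
    (mul_left_cancel₀ (mul_ne_zero h.h2 h.θ0) (by
      rw [P.B_smul_right] at e5 hww; linear_combination hww - e5)))
  obtain ⟨c, hc, ec⟩ := h1 1
  obtain ⟨d, hd, ed⟩ := h1 θ
  rw [h.B_dec] at ec ed
  obtain ⟨c1, c2⟩ := h.sep (s := P₀.B c p - 1) (t := P₀.B c q) (by
    rw [map_sub, map_one]; linear_combination ec)
  obtain ⟨d1, d2⟩ := h.sep (s := P₀.B d p) (t := P₀.B d q - 1) (by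
    rw [map_sub, map_one]; linear_combination ed)
  have hli : LinearIndependent K ![x, p, q] := by
    rw [Fintype.linearIndependent_iff]
    intro r hr
    simp only [Fin.sum_univ_three, Matrix.cons_val] at hr
    have r1 : r 1 = 0 := by
      simpa [h.o4.sym c x, hc, c2, sub_eq_zero.1 c1] using congrArg (P₀.B c) hr
    have r2 : r 2 = 0 := by
      simpa [h.o4.sym d x, hd, d1, sub_eq_zero.1 d2] using congrArg (P₀.B d) hr
    have r0 : r 0 = 0 := by simpa [r1, r2, hx0] using hr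
    intro i; fin_cases i <;> assumption
  have hle : Submodule.span K (Set.range ![x, p, q]) ≤
      P₀.perp (Submodule.span K (Set.range ![x, p, q])) := Submodule.span_le.2 (by
    rintro _ ⟨i, rfl⟩
    refine P₀.mem_perp_span.2 ?_
    rintro _ ⟨l, rfl⟩
    fin_cases i <;> fin_cases l <;>
      simp [hx, hp, hq, pp, pq, qq, h.o4.sym p x, h.o4.sym q x, h.o4.sym q p])
  have h3 := Submodule.finrank_mono hle
  have h4 := P₀.finrank_perp h.hP₀ (Submodule.span K (Set.range ![x, p, q]))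
  rw [finrank_span_eq_card hli, Fintype.card_fin] at h3 h4
  rw [h.o4.h4] at h4
  omega

theorem orth_pt {x x' : V₀} (hx : P₀.B x x = 0) (hx' : P₀.B x' x' = 0) (hx0 : x ≠ 0) (hx0' : x' ≠ 0)
    {g : V ≃ₗ[F] V} (hg : g ∈ M) (hw : P.B (j x) (g (j x')) = 0) :
    ∃ (c : F) (y : V₀), g (j x') = c • j y := by
  have hw' : P.B (j x') (g⁻¹ (j x)) = 0 := by
    rw [← (h.hM hg).B_eq, apply_inv_apply, P.B_eq_zero_comm, hw]
  rcases h.dich hw with h1 | ⟨c, μ, y, hy, e⟩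
  swap
  · exact h.line hT hx hx' hx0 hx0' hy hg e
  rcases h.dich hw' with h2 | ⟨c, μ, y, hy, e⟩
  · exact (h.torus hT hx hx' hx0 hg hw h1 h2).elim
  obtain ⟨c, y, e⟩ := h.line hT hx' hx hx0' hx0 hy (M.inv_mem hg) e
  have hc : c ≠ 0 := by rintro rfl; exact h.ne_zero hx0 (by simpa using e)
  have hy : P₀.B y y = 0 := h.orth_iff.1 (by
    simpa [e, h.orth hx, hc] using (h.hM (M.inv_mem hg)).B_eq (j x) (j x))
  have e' : g (j y) = c⁻¹ • j x := by
    rw [← apply_inv_apply g (j x), e, map_smul, smul_smul, inv_mul_cancel₀ hc, one_smul]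
  have h3 := (h.rt_zero hx' (h.orth_iff.1 (by simpa [e, hc] using hw')) hy).conj hg (h.hM hg)
  obtain ⟨a, μ, ha, e1⟩ := h.rat hT hx hx0 (b := -σ c⁻¹ • g (j x')) (c := 0) (by simp [hw])
    (h3.congr fun v => by
      rw [e', rt_herm h.hH, rt_herm h.hH, P.B_smul_left, P.B_smul_left, map_neg, P.σσ]; module)
  have : σ c ≠ 0 := by simpa using hc
  refine h.line hT hx hx' hx0 hx0' ha hg (c := -σ c) (μ := -σ c * μ) ?_
  rw [mul_smul, ← smul_add, ← e1, smul_smul]; simp [this]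

theorem sing_pt {x : V₀} (hx : P₀.B x x = 0) (hx0 : x ≠ 0) {g : V ≃ₗ[F] V} (hg : g ∈ M) :
    ∃ (c : F) (y : V₀), g (j x) = c • j y := by
  have o := h.o4
  have h2 := h.h2
  have gr : ∀ v, P.B v v = 0 → ∃ p q, v = j p + θ • j q ∧
      algebraMap K F (P₀.B p p) = θ ^ 2 * algebraMap K F (P₀.B q q) := fun v hv => by
    obtain ⟨p, q, rfl⟩ := h.dec v
    simp only [P.B_add_left, P.B_add_right, P.B_smul_left, P.B_smul_right, h.hj, h.σθ,
      o.sym q p] at hv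
    exact ⟨p, q, rfl, by linear_combination hv⟩
  obtain ⟨φ, φ1, φ2⟩ := h.exists_conj
  have β : ∀ p q p' q', P.B (φ (j p + θ • j q)) (j p' + θ • j q') = algebraMap K F (P₀.B p p') +
      θ ^ 2 * algebraMap K F (P₀.B q q') + θ * (algebraMap K F (P₀.B p q') +
        algebraMap K F (P₀.B q p')) := fun p q p' q' => by
    simp only [map_add φ, φ1, φ2, P.B_add_left, P.B_add_right, P.B_smul_left, P.B_smul_right, h.hj,
      P.σσ]
    ring
  have wt : ∀ v w, P.B v v = 0 → P.B w w = 0 → P.B (φ v) v ≠ 0 → P.B (φ w) w = P.B (φ v) v →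
      ∃ k ∈ M, k v = w := by
    intro v w hv hw h0 h1
    obtain ⟨p, q, rfl, e⟩ := gr v hv
    obtain ⟨p', q', rfl, e'⟩ := gr w hw
    rw [β, e, o.sym q p] at h0
    rw [β, β, e, e', o.sym q p, o.sym q' p'] at h1
    obtain ⟨a1, a2⟩ := h.sep (s := P₀.B p' q' - P₀.B p q) (t := P₀.B q' q' - P₀.B q q)
      (mul_left_cancel₀ (mul_ne_zero h2 h.θ0) (by rw [map_sub, map_sub]; linear_combination h1))
    rw [sub_eq_zero] at a1 a2
    obtain ⟨k, hk, k1, k2⟩ := h.witt (p := p) (q := q) (fun h3 => by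
      replace h3 := congrArg (algebraMap K F) h3
      rw [map_sub, map_mul, map_pow, e, map_zero] at h3
      rcases mul_eq_zero.1 (show (algebraMap K F (P₀.B p q) + θ * algebraMap K F (P₀.B q q)) *
        (algebraMap K F (-P₀.B p q) + θ * algebraMap K F (P₀.B q q)) = 0 by
          rw [map_neg]; linear_combination h3) with h4 | h4
      · simp [(h.sep h4).1, (h.sep h4).2] at h0
      · simp [neg_eq_zero.1 (h.sep h4).1, (h.sep h4).2] at h0)
      ((algebraMap K F).injective (by rw [e, e', a2])) a1 a2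
    exact ⟨k, hk, by rw [map_add, map_smul, k1, k2]⟩
  have hw : P.B (g (j x)) (g (j x)) = 0 := by rw [(h.hM hg).B_eq, h.orth hx]
  by_cases h0 : P.B (φ (g (j x))) (g (j x)) = 0
  · obtain ⟨p, q, e, e'⟩ := gr _ hw
    by_cases hp : p = 0
    · exact ⟨θ, q, by simp [e, hp]⟩
    rw [e, β, e', o.sym q p] at h0
    obtain ⟨a1, a2⟩ := h.sep (s := P₀.B p q) (t := P₀.B q q)
      (mul_left_cancel₀ (mul_ne_zero h2 h.θ0) (by linear_combination h0))
    have a3 : P₀.B p p = 0 := by simpa [a2] using e'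
    exact h.orth_pt hT a3 hx hp hx0 hg (by rw [e, h.B_dec]; simp [a1, a3])
  obtain ⟨f, hf, hxf⟩ := o.exists_partner hx hx0
  obtain ⟨a, ha, hxa, hfa, -⟩ := o.exists_ns_pair hx hf hxf (Or.inl rfl) (by simp) (by simp)
  obtain ⟨b, hb, hxb, hfb, hab⟩ := o.exists_ns_pair hx hf hxf (Or.inr ha) hxa hfa
  have ha' : algebraMap K F (P₀.B a a) ≠ 0 := by simpa using ha
  have hb' : algebraMap K F (P₀.B b b) ≠ 0 := by simpa using hb
  obtain ⟨s, hs⟩ := exists_sq_ne_conj h.hH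
  have hs0 : s ≠ 0 := by rintro rfl; simp at hs
  have hs1 : σ s ≠ 0 := by simpa using hs0
  obtain ⟨t, ht, ht'⟩ : ∃ t, σ t * t = -algebraMap K F (P₀.B a a) / algebraMap K F (P₀.B b b) ∧
      σ t ≠ t := by
    obtain ⟨t, ht⟩ := h.hH.norm_surj (-algebraMap K F (P₀.B a a) / algebraMap K F (P₀.B b b))
      (by simp [h.σa])
    by_cases h1 : σ t = t
    swap
    · exact ⟨t, ht, h1⟩
    have ht0 : t ≠ 0 := by
      rintro rfl; exact div_ne_zero (neg_ne_zero.2 ha') hb' (by simpa using ht.symm)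
    refine ⟨s / σ s * t, by rw [← ht, map_mul, map_div₀, P.σσ]; field_simp, fun h3 => hs ?_⟩
    rw [map_mul, map_div₀, P.σσ, h1] at h3
    field_simp at h3
    rw [map_mul]; linear_combination h3
  have hu : P.B (j a + t • j b) (j a + t • j b) = 0 := by
    simp only [P.B_add_left, P.B_add_right, P.B_smul_left, P.B_smul_right, h.hj, hab, o.sym b a]
    field_simp at ht
    simp only [map_zero]; linear_combination ht
  have hxu : P.B (j x) (j a + t • j b) = 0 := by simp [h.orth hxa, h.orth hxb]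
  have sy : P.B (φ (g (j a + t • j b))) (g (j x)) = P.B (φ (g (j x))) (g (j a + t • j b)) := by
    obtain ⟨p, q, e⟩ := h.dec (g (j x))
    obtain ⟨p', q', e'⟩ := h.dec (g (j a + t • j b))
    rw [e, e', β, β, o.sym p' p, o.sym q' q, o.sym p' q, o.sym q' p]; ring
  obtain ⟨l, μ, hμ, e⟩ : ∃ l μ : F, μ ≠ 0 ∧ P.B (φ (l • g (j x) + g (j a + t • j b)))
      (l • g (j x) + g (j a + t • j b)) = P.B (φ (μ • g (j x))) (μ • g (j x)) := by
    simp only [map_add φ, φ1, P.B_add_left, P.B_add_right, P.B_smul_left, P.B_smul_right, P.σσ, sy]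
    generalize P.B (φ (g (j x))) (g (j x)) = A at h0
    generalize P.B (φ (g (j x))) (g (j a + t • j b)) = B
    generalize P.B (φ (g (j a + t • j b))) (g (j a + t • j b)) = C
    obtain ⟨r, hr0, hr⟩ : ∃ r : F, r ≠ 0 ∧ r ^ 2 + (C / A - (B / A) ^ 2) ≠ 0 := by
      by_contra hcon
      push Not at hcon
      exact hs (by rw [show s * s = 1 by linear_combination hcon s hs0 - hcon 1 one_ne_zero, map_one])
    refine ⟨((C / A - (B / A) ^ 2) / r - r) / 2 - B / A, (r ^ 2 + (C / A - (B / A) ^ 2)) / (2 * r),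
      div_ne_zero hr (mul_ne_zero h2 hr0), ?_⟩
    field_simp; ring
  obtain ⟨k, hk, ek⟩ := wt _ _ (by simp [hw]) (by
    rw [← map_smul, ← map_add, (h.hM hg).B_eq, P.B_add_left, P.B_add_right _ (l • j x),
      P.B_add_right _ (l • j x), hu, P.B_smul_right _ _ (j x), P.B_smul_right _ _ (j x),
      P.B_eq_zero_comm.1 hxu]
    simp [h.orth hx, hxu]) (by simp [φ1, P.σσ, h0, hμ]) e
  have e1 : μ • (g⁻¹ * k * g) (j x) = l • j x + (j a + t • j b) := by
    rw [LinearEquiv.mul_apply, LinearEquiv.mul_apply, ← map_smul, ← map_smul, ek, ← map_smul,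
      ← map_add, inv_apply_apply]
  obtain ⟨c, y, e2⟩ := h.orth_pt hT hx hx hx0 hx0 (M.mul_mem (M.mul_mem (M.inv_mem hg) hk) hg)
    (mul_left_cancel₀ hμ (by rw [← P.B_smul_right, e1]; simp [h.orth hx, hxu]))
  rw [e2] at e1
  have e3 := congrArg (P.B (j a)) e1
  have e4 := congrArg (P.B (j b)) e1
  simp only [P.B_add_right, P.B_smul_right, h.hj, o.sym a x, o.sym b x, o.sym b a, hxa, hxb, hab,
    map_zero, mul_zero, zero_add, add_zero] at e3 e4
  have e5 : t * algebraMap K F (P₀.B b b * P₀.B a y) = algebraMap K F (P₀.B b y * P₀.B a a) := by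
    simp only [map_mul]
    linear_combination algebraMap K F (P₀.B b y) * e3 - algebraMap K F (P₀.B a y) * e4
  have e6 := congrArg σ e5
  rw [map_mul σ, h.σa, h.σa, ← e5] at e6
  refine absurd (mul_right_cancel₀ (fun h3 => ha' ?_) e6) ht'
  rw [← e3, show P₀.B a y = 0 by simpa [hb] using h3]; simp

theorem rational {g : V ≃ₗ[F] V} (hg : g ∈ M) : ∃ c : F, c ≠ 0 ∧ ∀ v, ∃ w, g (j v) = c • j w := by
  have o := h.o4
  obtain ⟨e, -, he0, he⟩ := o.sing ⊤ (by simp [o.h4])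
  obtain ⟨f, hf, hef⟩ := o.exists_partner he he0
  obtain ⟨c, e', ee⟩ := h.sing_pt hT he he0 hg
  obtain ⟨d, f', ef⟩ := h.sing_pt hT hf (by rintro rfl; simp at hef) hg
  have h1 := (h.hM hg).B_eq (j e) (j f)
  rw [ee, ef, P.B_smul_left, P.B_smul_right, h.hj, h.hj, hef, map_one] at h1
  have hc : c ≠ 0 := by rintro rfl; simp at h1
  have hd : d ≠ 0 := by rintro rfl; simp at h1
  have hB : P₀.B e' f' ≠ 0 := fun h0 => by simp [h0] at h1
  have hc' : σ c ≠ 0 := by simpa using hc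
  have he' : P₀.B e' e' = 0 := h.orth_iff.1 (by
    simpa [ee, h.orth he, hc] using (h.hM hg).B_eq (j e) (j e))
  obtain ⟨n, hn⟩ := h.fix (σ c * c) (by rw [map_mul, P.σσ, mul_comm])
  have hB' : algebraMap K F (P₀.B e' f') ≠ 0 := by simpa using hB
  refine ⟨c, hc, fun v => ?_⟩
  obtain ⟨a, h2, h3, s, t, rfl⟩ : ∃ a, P₀.B e a = 0 ∧ P₀.B f a = 0 ∧ ∃ s t : K,
      v = a + s • e + t • f :=
    ⟨v - P₀.B f v • e - P₀.B e v • f, by simp [he, hef], by simp [hf, o.sym f e, hef], P₀.B f v,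
      P₀.B e v, by abel⟩
  obtain ⟨b, μ, -, eb⟩ := h.norm hT he he' (by rintro rfl; simp at hB) hg ee h2
  have h4 := congrArg (P.B (g (j f))) eb
  rw [P.B_smul_right, (h.hM hg).B_eq, h.orth h3, ef, P.B_smul_left, P.B_add_right, P.B_smul_right,
    h.hj, h.hj, o.sym f' e', mul_zero, eq_comm, mul_eq_zero, map_eq_zero] at h4
  replace h4 := h4.resolve_left hd
  refine ⟨n⁻¹ • (b - (P₀.B f' b / P₀.B e' f') • e') + s • e' + (t / (n * P₀.B e' f')) • f',
    smul_right_injective V hc' ?_⟩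
  simp only [map_add, map_sub, map_smulₛₗ, smul_add, eb, ee, ef, map_inv₀, map_div₀, map_mul, hn,
    RingHom.id_apply]
  match_scalars
  · field_simp
  · field_simp; linear_combination h4
  · field_simp; linear_combination algebraMap K F t * h1

end OU

theorem exists_cube {F : Type*} [Field F] [Fintype F] {q : ℕ} (hF : Fintype.card F = q ^ 2)
    (hq : 4 ≤ q) : ∃ t : F, t ≠ 0 ∧ Unitary.conj hF t ^ 3 ≠ t := by
  by_contra h
  push Not at h
  obtain ⟨s, hs, hs0, hs1⟩ := exists_fixed_sq hF hq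
  have := h s hs0
  rw [hs] at this
  exact hs1 (mul_left_cancel₀ hs0 (by linear_combination this))

open Unitary in
theorem su4_orth {F : Type*} [Field F] [Fintype F] {q : ℕ} (hF : Fintype.card F = q ^ 2)
    (hodd : Odd q) (hq : 4 ≤ q) (F₀ : Subfield F) (hcard : Fintype.card F = Nat.card F₀ ^ 2)
    (Q : GL (Fin 4) F) (hQ : Cfsg.Geo.IsFormRationalStructure (Cfsg.hermForm 4 F q) F₀ 1 Q) :
    Cfsg.Geo.IsMaximalIn (Cfsg.GU 4 F q ⊓ Cfsg.Geo.specialLinear (Fin 4) F)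
      (Cfsg.Geo.subfieldSubgroup F₀ Q ⊓ (Cfsg.GU 4 F q ⊓ Cfsg.Geo.specialLinear (Fin 4) F)) := by
  have hr' := finrank_eq_of_card_eq_pow F₀ hcard
  have hm := mem_iff_conj hF F₀ hcard
  have h2 : (2 : F) ≠ 0 := by
    intro h2
    have : CharP F 2 := CharTwo.of_one_ne_zero_of_two_eq_zero one_ne_zero h2
    have := FiniteField.even_card_iff_char_two.1 (ringChar.eq F 2)
    have h3 := hodd.pow (n := 2)
    rw [← hF, Nat.odd_iff] at h3
    omega
  have h2' : (2 : F₀) ≠ 0 := fun h => h2 (by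
    have := congrArg F₀.subtype h; rwa [map_ofNat, map_zero] at this)
  have hθ : (2⁻¹ : F₀) + conj₀ hF F₀ 2⁻¹ = 1 := by
    rw [map_inv₀, map_ofNat]; field_simp; ring
  have hβ : ∀ β : F, (∀ l ∈ F₀, l * β - conj hF (l * β) ∈ F₀) → β ∈ F₀ := by
    intro β h
    have h1 := (hm _).1 (h 1 F₀.one_mem)
    rw [one_mul, map_sub, conj_conj] at h1
    exact (hm β).2 (mul_left_cancel₀ h2 (by linear_combination h1))
  obtain ⟨θ, hθ0, hθ1⟩ := (uPQ_isHerm hF 4).exists_trace_zero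
  have key : ∀ {σ₀ : F₀ →+* F₀} (P₀ : PQ σ₀ (Fin 4 → F₀)), σ₀ = RingHom.id F₀ → P₀.ε = 1 →
      (∀ a, a ∈ P₀.Λ ↔ a + σ₀ a = 0) → (∀ M ≤ SUV (uPQ hF 4), (∀ g ∈ SUV (uPQ hF 4),
        (∃ c : F, c ≠ 0 ∧ ∀ v, ∃ w, g (ratEmb F₀ Q v) = c • ratEmb F₀ Q w) → g ∈ M) →
        URat (uPQ hF 4) P₀ (ratEmb F₀ Q) M) →
      Cfsg.Geo.IsMaximalIn (Cfsg.GU 4 F q ⊓ Cfsg.Geo.specialLinear (Fin 4) F)
      (Cfsg.Geo.subfieldSubgroup F₀ Q ⊓ (Cfsg.GU 4 F q ⊓ Cfsg.Geo.specialLinear (Fin 4) F)) := by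
    rintro _ P₀ rfl h1 h3 h4
    have h5 := fun M hM hH => (⟨h4 M hM hH, ⟨⟨(h4 M hM hH).hP₀, h1, h3, (h4 M hM hH).sing⟩, h2',
      by simp⟩, by simp, fun a ha => ⟨⟨a, (hm a).2 ha⟩, rfl⟩, fun k k1 k2 => by
        obtain ⟨g, hg, e⟩ := exists_lift (h4 M hM hH) k1 k2
        exact ⟨g, hH g hg ⟨1, one_ne_zero, fun v => ⟨k v, by simp [e]⟩⟩, e⟩, exists_cube hF hq, hθ0,
      by linear_combination hθ1⟩ : OU (uPQ hF 4) P₀ (ratEmb F₀ Q) M θ)
    refine isMaximalIn_su hF le_rfl _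
      (fun g => ∃ c : F, c ≠ 0 ∧ ∀ v, ∃ w, g (ratEmb F₀ Q v) = c • ratEmb F₀ Q w)
      (fun g _ => mem_subfieldSubgroup F₀ Q g) ?_ fun M hM hH g hg hgH x hx => ?_
    · have h := h5 _ le_rfl fun g hg _ => hg
      obtain ⟨e, -, he0, he⟩ := h.o4.sing ⊤ (by simp)
      obtain ⟨f, hf, hef⟩ := h.o4.exists_partner he he0
      obtain ⟨g, hg, eg⟩ := exists_tv_SUV h.hH (h.orth he) hθ1
      refine ⟨g, hg, ?_⟩
      rintro ⟨c, hc, hgc⟩
      obtain ⟨w, hw⟩ := hgc f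
      have e1 := congrArg ((uPQ hF 4).B (ratEmb F₀ Q f)) hw
      have e2 := congrArg ((uPQ hF 4).B (ratEmb F₀ Q e)) hw
      simp only [eg, PQ.B_add_right, PQ.B_smul_right, h.hj, he, hf, hef, h.o4.sym f e, map_zero,
        map_one] at e1 e2
      have e3 := (h.sep (s := -P₀.B f w) (t := P₀.B e w) (by
        rw [map_neg]
        linear_combination algebraMap F₀ F (P₀.B e w) * e1 - algebraMap F₀ F (P₀.B f w) * e2)).2
      simp [e3] at e2
    · by_contra hcon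
      refine hgH ((h5 M hM hH).rational (fun y hy hy0 d hd => ?_) hg)
      by_contra hd0
      exact hcon ((h5 M hM hH).tfOn_top hy hy0 hd0 hd x trivial hx)
  exact key _ (RingHom.ext fun a => Subtype.ext ((hm a).1 a.2)) rfl (fun _ => Iff.rfl)
    (uRat_su hF F₀ Q hQ _ hθ hβ)

end CfsgLib.Low4
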